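import Cfsg.Agent.Lib.CT.Sch1

/-!
Central extensions of Chevalley groups of simply laced types of large rank: the system of root elements.
-/

set_option autoImplicit false
set_option linter.unusedSimpArgs false
set_option linter.unusedVariables false
set_option linter.unusedSectionVars false

namespace Cfsg.Agent.Lib.CT

open Cfsg Cfsg.Lie Cfsg.Agent.Lib.Chev
open Good2 (NN)

variable {D : ChevalleyDatum} {K : Type*} [Field K]

theorem cmB_of {ct : ℕ → ℕ → List (ℕ × ℤ × ℕ × ℕ)} (h0 : chkS0 (tblOf D) ct = true) {p a : ℕ} (hp : p < D.nroots)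
    (ha : a < D.nroots) (h : Cm D p a) : cmB (tblOf D) ct p a = true := by
  simp only [cmB, Bool.or_eq_true, Bool.and_eq_true, Bool.not_eq_true', List.isEmpty_iff]
  by_cases hap : a = p
  · left
    subst hap
    exact Nat.beq_refl _
  rcases h with h | ⟨h1, h2⟩
  · exact absurd h hap
  · right
    refine ⟨?_, by rw [ct_of h0 hp ha hap h1]; exact h2⟩
    have : Nat.beq a (D.neg p) = false := by
      cases h : Nat.beq a (D.neg p) with
      | false => rfl
      | true => exact absurd (Nat.eq_of_beq_eq_true h) h1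
    change Nat.beq a (D.neg p) = false
    exact this

theorem xgt_inj (G : Good5 D) {r : ℕ} (hr : r < D.nroots) {a b : K} (h : G.xgt r a = G.xgt r b) : a = b := by
  rw [G.xgt_of hr, G.xgt_of hr] at h
  have h2 : G.xg hr (a - b) = 1 := by
    rw [sub_eq_add_neg, ← G.xg_mul, h, G.xg_mul, add_neg_cancel, G.xg_zero]
  have h3 := G.toGood2.xg_eq_one hr h2
  exact sub_eq_zero.mp h3

theorem dc_cm_self {D : ChevalleyDatum} {r s q : ℕ} {C : ℤ} (h : Dc D r s q C) : (C : K) * (C : K) = 1 :=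
  sign_sq h.2.2.2.2.2.1

section Sys

variable {Γ : Type*} [Group Γ] {G : Good5 D} (S : SchData G) {τ : Γ →* GL D.Idx K}
  (hl : ∀ r, r < D.nroots → ∀ t : K, ∃ a, τ a = G.xgt r t) (hz : ∀ z, τ z = 1 → ∀ g, g * z = z * g)

include S hl hz

/-- Lifts of commuting root elements commute. -/
theorem Cm_lifts {p q : ℕ} (hp : p < D.nroots) (hq : q < D.nroots) (h : Cm D p q) {t w : K} {A B : Γ}
    (hA : τ A = G.xgt p t) (hB : τ B = G.xgt q w) : A * B = B * A := by
  obtain ⟨⟨C, hdc⟩, h1, h2⟩ := S.fa_spec hp hq (cmB_of S.s0 hp hq h)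
  obtain ⟨La, hLa⟩ := hl _ hdc.1 (1 : K)
  obtain ⟨Lb, hLb⟩ := hl _ hdc.2.1 ((C : K) * w)
  have hX : τ (cc La Lb) = G.xgt q w := by
    rw [map_cc, hLa, hLb, cc_xgt G hdc]
    congr 1
    calc (C : K) * 1 * ((C : K) * w) = ((C : K) * (C : K)) * w := by ring
      _ = w := by rw [dc_cm_self hdc, one_mul]
  have h3 : A * cc La Lb = cc La Lb * A := by
    refine three hz ?_ ?_
    · rw [map_cc, hA, hLa]
      exact cc_eq_one (xgt_comm G hp hdc.1 h1 _ _)
    · rw [map_cc, hA, hLb]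
      exact cc_eq_one (xgt_comm G hp hdc.2.1 h2 _ _)
  have h4 : τ ((cc La Lb)⁻¹ * B) = 1 := by
    rw [map_mul, map_inv, hX, hB]
    simp
  have h5 := hz _ h4 A
  have h6 : B = cc La Lb * ((cc La Lb)⁻¹ * B) := by group
  calc A * B = A * (cc La Lb * ((cc La Lb)⁻¹ * B)) := by rw [← h6]
    _ = (A * cc La Lb) * ((cc La Lb)⁻¹ * B) := by group
    _ = cc La Lb * (A * ((cc La Lb)⁻¹ * B)) := by rw [h3]; group
    _ = cc La Lb * (((cc La Lb)⁻¹ * B) * A) := by rw [h5]
    _ = B * A := by group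

/-- The move on decompositions. -/
theorem move_val {r s q a b t' : ℕ} {C C1 C2 C3 : ℤ} (hrs : Dc D r s q C) (hab : Dc D a b s C1) (hra : Dc D r a t' C2)
    (hbt : Dc D b t' q C3) (hrb : Cm D r b) (hts : Cm D t' s) {A B B' T' : Γ} {t u : K}
    (hA : τ A = G.xgt r t) (hB : τ B = G.xgt s u) (hB' : τ B' = G.xgt b 1)
    (hT' : τ T' = G.xgt t' (-((C2 : K) * (C1 : K) * t * u))) : cc A B = cc B' T' := by
  obtain ⟨A', hA'⟩ := hl _ hab.1 ((C1 : K) * u)
  have hr := hrs.1
  have hs := hrs.2.1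
  have hq := hrs.2.2.1
  have hb := hab.2.1
  have ht' := hra.2.2.1
  have hT : τ (cc A' B') = G.xgt s u := by
    rw [map_cc, hA', hB', cc_xgt G hab]
    congr 1
    calc (C1 : K) * ((C1 : K) * u) * 1 = ((C1 : K) * (C1 : K)) * u := by ring
      _ = u := by rw [dc_cm_self hab, one_mul]
  have hW : τ (cc A A') = G.xgt t' ((C2 : K) * t * ((C1 : K) * u)) := by
    rw [map_cc, hA, hA', cc_xgt G hra]
  have hWi : τ (cc A A')⁻¹ = G.xgt t' (-((C2 : K) * (C1 : K) * t * u)) := by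
    rw [map_inv, hW, G.xgt_of ht', G.xgt_of ht', inv_eq_iff_mul_eq_one, G.xg_mul]
    have e3 : (C2 : K) * t * ((C1 : K) * u) + -((C2 : K) * (C1 : K) * t * u) = 0 := by ring
    rw [e3, G.xg_zero]
  have hY : τ (cc B' (cc A A')⁻¹) = G.xgt q ((C3 : K) * 1 * (-((C2 : K) * (C1 : K) * t * u))) := by
    rw [map_cc, hB', hWi, cc_xgt G hbt]
  have h1 : cc A B = cc A (cc A' B') := cc_congr hz rfl (hB.trans hT.symm)
  have h2 : cc B' T' = cc B' (cc A A')⁻¹ := cc_congr hz rfl (hT'.trans hWi.symm)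
  rw [h1, h2]
  refine cc_move rfl rfl (Cm_lifts S hl hz hr hb hrb hA hB') (Cm_lifts S hl hz ht' hs hts hW hT) rfl ?_ ?_
  · exact Cm_lifts S hl hz hs hq hrs.2.2.2.2.2.2.2.2 hT hY
  · exact Cm_lifts S hl hz ht' hq hbt.2.2.2.2.2.2.2.2 hW hY

/-- The root element function. -/
theorem exists_fn {q : ℕ} (hq : q < D.nroots) : ∃ ξ : K → Γ, (∀ w, τ (ξ w) = G.xgt q w) ∧
    ∀ r s C, Dc D r s q C → ∀ (A B : Γ) (t u : K), τ A = G.xgt r t → τ B = G.xgt s u → cc A B = ξ ((C : K) * t * u) := by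
  obtain ⟨⟨C₀, h₀⟩, -, -⟩ := S.fa_spec hq hq (S.cmB_self)
  set r₀ := (S.fa q q).1 with hr₀
  set s₀ := (S.fa q q).2 with hs₀
  obtain ⟨La, hLa⟩ := hl r₀ h₀.1 (1 : K)
  choose Lb hLb using hl s₀ h₀.2.1
  refine ⟨fun w => cc La (Lb ((C₀ : K) * w)), fun w => ?_, ?_⟩
  · simp only
    rw [map_cc, hLa, hLb, cc_xgt G h₀]
    congr 1
    calc (C₀ : K) * 1 * ((C₀ : K) * w) = ((C₀ : K) * (C₀ : K)) * w := by ring
      _ = w := by rw [dc_cm_self h₀, one_mul]
  have key : ∀ d r s C, S.dp r s = d → Dc D r s q C → ∀ (A B : Γ) (t u : K), τ A = G.xgt r t → τ B = G.xgt s u →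
      cc A B = cc La (Lb ((C₀ : K) * ((C : K) * t * u))) := by
    intro d
    induction d using Nat.strong_induction_on with
    | _ d IH =>
    intro r s C hd hdc A B t u hA hB
    rcases S.mv_spec hdc.1 hdc.2.1 hdc.2.2.2.1 hdc.2.2.2.2.1 with h | ⟨q', a, b, t', ⟨C', h1⟩, ⟨C1, h2⟩, ⟨C2, h3⟩, ⟨C3, h4⟩, h5, h6, h7⟩
    · rw [hdc.2.2.2.2.2.2.1] at h
      simp at h
    · have e1 : q' = q ∧ C' = C := by
        have := h1.2.2.2.2.2.2.1.symm.trans hdc.2.2.2.2.2.2.1
        simp only [List.cons.injEq, Prod.mk.injEq, and_true] at this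
        exact this
      obtain ⟨e10, e11⟩ := e1
      have e10' := e10.symm
      have e11' := e11.symm
      subst e10'
      subst e11'
      obtain ⟨B', hB'⟩ := hl b h2.2.1 (1 : K)
      obtain ⟨T', hT'⟩ := hl t' h3.2.2.1 (-((C2 : K) * (C1 : K) * t * u))
      have e2 := move_val S hl hz hdc h2 h3 h4 h5 h6 hA hB hB' hT'
      rw [e2]
      rcases h7 with ⟨e3, e4⟩ | h7
      · -- the canonical pair
        have e5 : r = r₀ := e3
        have e6 : s = s₀ := e4
        subst e5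
        subst e6
        have e7 : C = C₀ := by
          have := hdc.2.2.2.2.2.2.1.symm.trans h₀.2.2.2.2.2.2.1
          simpa using this
        subst e7
        have e8 : (C : K) * ((C : K) * t * u) = t * u := by
          calc (C : K) * ((C : K) * t * u) = ((C : K) * (C : K)) * t * u := by ring
            _ = t * u := by rw [dc_cm_self hdc, one_mul]
        rw [e8]
        have e9 := move_val S hl hz hdc h2 h3 h4 h5 h6 (A := La) (B := Lb (t * u)) (B' := B') (T' := T') (t := 1) (u := t * u)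
          hLa (hLb _) hB' (by rw [hT']; congr 2; ring)
        exact e9.symm
      · have e3 := IH _ (hd ▸ h7) b t' C3 rfl h4 B' T' 1 (-((C2 : K) * (C1 : K) * t * u)) hB' hT'
        rw [e3]
        -- comparing signs
        have e4 : τ (cc A B) = G.xgt q ((C : K) * t * u) := by
          rw [map_cc, hA, hB, cc_xgt G hdc]
        obtain ⟨A₁, hA₁⟩ := hl r hdc.1 (1 : K)
        obtain ⟨B₁, hB₁⟩ := hl s hdc.2.1 (1 : K)
        obtain ⟨T₁, hT₁⟩ := hl t' h3.2.2.1 (-((C2 : K) * (C1 : K) * 1 * 1))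
        have e5 := move_val S hl hz hdc h2 h3 h4 h5 h6 hA₁ hB₁ hB' hT₁
        have e6 := congrArg τ e5
        rw [map_cc, map_cc, hA₁, hB₁, hB', hT₁, cc_xgt G hdc, cc_xgt G h4] at e6
        have e7 := xgt_inj G hdc.2.2.1 e6
        have e8 : (C3 : K) * 1 * (-((C2 : K) * (C1 : K) * t * u)) = (C : K) * t * u := by
          calc (C3 : K) * 1 * (-((C2 : K) * (C1 : K) * t * u)) = ((C3 : K) * 1 * (-((C2 : K) * (C1 : K) * 1 * 1))) * t * u := by ring
            _ = _ := by rw [← e7]; ring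
        rw [e8]
  intro r s C hdc A B t u hA hB
  exact key _ r s C rfl hdc A B t u hA hB

/-- The system of root elements. -/
theorem exists_sys : ∃ X : ℕ → K → Γ, RS G X (fun r => r < D.nroots) τ := by
  have hch : ∀ q, ∃ ξ : K → Γ, q < D.nroots → (∀ w, τ (ξ w) = G.xgt q w) ∧
      ∀ r s C, Dc D r s q C → ∀ (A B : Γ) (t u : K), τ A = G.xgt r t → τ B = G.xgt s u → cc A B = ξ ((C : K) * t * u) := by
    intro q
    by_cases hq : q < D.nroots
    · obtain ⟨ξ, h⟩ := exists_fn S hl hz hq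
      exact ⟨ξ, fun _ => h⟩
    · exact ⟨fun _ => 1, fun h => absurd h hq⟩
  choose X0 hX0 using hch
  let X : ℕ → K → Γ := fun q t => if q < D.nroots then X0 q t else 1
  have hXv : ∀ {q}, q < D.nroots → ∀ t, X q t = X0 q t := fun {q} hq t => if_pos hq
  have hθ : ∀ {q}, q < D.nroots → ∀ t, τ (X q t) = G.xgt q t := by
    intro q hq t
    rw [hXv hq]
    exact (hX0 q hq).1 t
  have hcc : ∀ {r s q C}, Dc D r s q C → ∀ t u : K, cc (X r t) (X s u) = X q ((C : K) * t * u) := by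
    intro r s q C h t u
    rw [hXv h.2.2.1]
    exact (hX0 q h.2.2.1).2 r s C h _ _ t u (hθ h.1 t) (hθ h.2.1 u)
  have hR1 : ∀ {r}, r < D.nroots → ∀ t u : K, X r t * X r u = X r (t + u) := by
    intro q hq w w'
    obtain ⟨⟨C₀, h₀⟩, -, -⟩ := S.fa_spec hq hq (S.cmB_self)
    generalize (S.fa q q).1 = r₀ at h₀
    generalize (S.fa q q).2 = s₀ at h₀
    have hr₀ := h₀.1
    have hs₀ := h₀.2.1
    have e1 : ∀ w : K, cc (X r₀ (1 : K)) (X s₀ ((C₀ : K) * w)) = X q w := by
      intro w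
      rw [hcc h₀]
      congr 1
      calc (C₀ : K) * 1 * ((C₀ : K) * w) = ((C₀ : K) * (C₀ : K)) * w := by ring
        _ = w := by rw [dc_cm_self h₀, one_mul]
    have e2 : τ (X s₀ ((C₀ : K) * w) * X s₀ ((C₀ : K) * w')) = G.xgt s₀ ((C₀ : K) * (w + w')) := by
      rw [map_mul, hθ hs₀, hθ hs₀, G.xgt_of hs₀, G.xgt_of hs₀, G.xgt_of hs₀, G.xg_mul, mul_add]
    have e3 : X q (w + w') = cc (X r₀ (1 : K)) (X s₀ ((C₀ : K) * w) * X s₀ ((C₀ : K) * w')) := by
      rw [← e1 (w + w')]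
      exact cc_congr hz rfl ((hθ hs₀ _).trans e2.symm)
    have e4 : ∀ a b b' : Γ, cc a (b * b') = cc a b * (b * cc a b' * b⁻¹) := by
      intro a b b'
      unfold cc
      group
    rw [e3, e4, ← e1 w, ← e1 w']
    have e5 : X s₀ ((C₀ : K) * w) * cc (X r₀ (1 : K)) (X s₀ ((C₀ : K) * w')) =
        cc (X r₀ (1 : K)) (X s₀ ((C₀ : K) * w')) * X s₀ ((C₀ : K) * w) := by
      refine Cm_lifts S hl hz hs₀ hq h₀.2.2.2.2.2.2.2.2 (w := w') (hθ hs₀ _) ?_
      rw [e1]
      exact hθ hq w'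
    rw [e5]
    group
  have hzero : ∀ r, X r (0 : K) = 1 := by
    intro r
    by_cases hr : r < D.nroots
    · have := hR1 hr (0 : K) 0
      rw [add_zero] at this
      exact mul_eq_left.mp this
    · exact if_neg hr
  refine ⟨X, ⟨fun h => h, fun h => G.neg_lt h, hzero, hR1, ?_, ?_, hθ⟩⟩
  · intro r s hr hs h1 h2 t u
    rcases S.mv_spec hr hs h1 h2 with h | ⟨q, a, b, t', ⟨C, h3⟩, -⟩
    · have e1 : D.commWord K r s t u = [] := by
        simp [ChevalleyDatum.commWord, h]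
      rw [e1, wX_nil, mul_one]
      exact (Cm_lifts S hl hz hr hs (Or.inr ⟨h2, h⟩) (hθ hr t) (hθ hs u)).symm
    · have e1 : D.commWord K r s t u = [(q, (C : K) * (-t) * u)] := by
        simp only [ChevalleyDatum.commWord, h3.2.2.2.2.2.2.1, List.map_cons, List.map_nil, pow_one]
      have hq := h3.2.2.1
      rw [e1]
      have e2 : wX X [(q, (C : K) * (-t) * u)] = (X q ((C : K) * t * u))⁻¹ := by
        simp only [wX, List.map_cons, List.map_nil, List.prod_cons, List.prod_nil, mul_one]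
        rw [eq_inv_iff_mul_eq_one, hR1 hq]
        have : (C : K) * (-t) * u + (C : K) * t * u = 0 := by ring
        rw [this, hzero]
      rw [e2]
      have e3 := hcc h3 t u
      have e4 := Cm_lifts S hl hz hr hq h3.2.2.2.2.2.2.2.1 (hθ hr t) (hθ hq ((C : K) * t * u))
      have e5 := Cm_lifts S hl hz hs hq h3.2.2.2.2.2.2.2.2 (hθ hs u) (hθ hq ((C : K) * t * u))
      rw [← e3] at e4 e5 ⊢
      have e6 := cc_of (a := X r t) (b := X s u) (c := (cc (X r t) (X s u))⁻¹)
      set c := cc (X r t) (X s u) with hc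
      have e7 : c * (X s u * X r t) = X r t * X s u := by
        rw [hc]
        unfold cc
        group
      have e8 : X r t * X s u * c⁻¹ = c⁻¹ * (X r t * X s u) := by
        have : c * (X r t * X s u) = (X r t * X s u) * c := by
          rw [← mul_assoc, ← e4, mul_assoc, ← e5, mul_assoc]
        rw [mul_inv_eq_iff_eq_mul, mul_assoc, ← this]
        group
      rw [e8, ← e7]
      group
  · intro r s hr hs h1 h2 c hc
    exact G.commTerms_lt hr hs c hc

end Sys

end Cfsg.Agent.Lib.CT
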