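import Cfsg.Agent.Lib.CT.Sch2

/-!
Symbols on the multiplicative group of a finite field, and the rank one computation for Steinberg symbols.
-/

set_option autoImplicit false
set_option linter.unusedSimpArgs false
set_option linter.unusedVariables false
set_option linter.unusedSectionVars false

namespace Cfsg.Agent.Lib.CT

section Symbol

variable {K : Type*} [Field K] {A : Type*} [Group A]

/-- In a finite field which has non-squares, there is a non-square whose complement is a non-square. -/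
theorem exists_nonsq [Finite K] {g : Kˣ} (hg : ¬ IsSquare g) :
    ∃ a b : Kˣ, (a : K) + b = 1 ∧ ¬ IsSquare a ∧ ¬ IsSquare b := by
  classical
  by_contra hcon
  push Not at hcon
  have := Fintype.ofFinite Kˣ
  have hcon' : ∀ a b : Kˣ, (a : K) + b = 1 → ¬ IsSquare a → IsSquare b := fun a b h1 h2 => hcon a b h1 h2
  have h1ne : ∀ a : Kˣ, ¬ IsSquare a → (1 : K) - a ≠ 0 := by
    intro a ha h
    apply ha
    have : a = 1 := Units.ext (by push_cast; linear_combination -h)
    rw [this]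
    exact IsSquare.one
  let N : Finset Kˣ := Finset.univ.filter fun a => ¬ IsSquare a
  let S : Finset Kˣ := Finset.univ.filter fun a => IsSquare a
  have h1 : N.card ≤ (S.erase 1).card := by
    refine Finset.card_le_card_of_injOn (fun a => if h : (1 : K) - a ≠ 0 then Units.mk0 _ h else 1) ?_ ?_
    · intro a ha
      have ha' : ¬ IsSquare a := (Finset.mem_filter.mp ha).2
      have hne := h1ne a ha'
      simp only [Finset.coe_erase, Set.mem_sdiff, Finset.mem_coe, Set.mem_singleton_iff]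
      rw [dif_pos hne]
      refine ⟨Finset.mem_filter.mpr ⟨Finset.mem_univ _, ?_⟩, ?_⟩
      · exact hcon' a _ (by simp) ha'
      · intro e
        have e2 := congrArg Units.val e
        simp only [Units.val_mk0, Units.val_one] at e2
        have : (a : K) = 0 := by linear_combination -e2
        exact a.ne_zero this
    · intro a ha b hb e
      have ha' : ¬ IsSquare a := (Finset.mem_filter.mp ha).2
      have hb' : ¬ IsSquare b := (Finset.mem_filter.mp hb).2
      simp only at e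
      rw [dif_pos (h1ne a ha'), dif_pos (h1ne b hb')] at e
      have e2 := congrArg Units.val e
      simp only [Units.val_mk0] at e2
      exact Units.ext (by linear_combination -e2)
  have h2 : S.card ≤ N.card := by
    refine Finset.card_le_card_of_injOn (fun a => g * a) ?_ ?_
    · intro a ha
      have ha' : IsSquare a := (Finset.mem_filter.mp ha).2
      refine Finset.mem_filter.mpr ⟨Finset.mem_univ _, ?_⟩
      intro h3
      apply hg
      obtain ⟨r, hr⟩ := ha'
      obtain ⟨s, hs⟩ := h3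
      refine ⟨s * r⁻¹, ?_⟩
      have : g = s * s * a⁻¹ := by rw [← hs]; group
      rw [this, hr]
      simp only [mul_inv_rev]
      rw [mul_comm r⁻¹ r⁻¹]
      simp only [mul_assoc, mul_comm, mul_left_comm]
    · intro a _ b _ e
      exact mul_left_cancel e
  have h3 : (1 : Kˣ) ∈ S := Finset.mem_filter.mpr ⟨Finset.mem_univ _, IsSquare.one⟩
  have h4 := Finset.card_erase_of_mem h3
  have h5 : 0 < S.card := Finset.card_pos.mpr ⟨1, h3⟩
  omega

/-- Bimultiplicative symbols with the Steinberg relation on a finite field vanish. -/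
theorem symbol_trivial [Finite K] (c : Kˣ → Kˣ → A)
    (hl : ∀ a a' b, c (a * a') b = c a b * c a' b) (hr : ∀ a b b', c a (b * b') = c a b * c a b')
    (hs : ∀ a b : Kˣ, (a : K) + b = 1 → c a b = 1) (a b : Kˣ) : c a b = 1 := by
  have c1l : ∀ b, c 1 b = 1 := by
    intro b
    have := hl 1 1 b
    rw [mul_one] at this
    exact left_eq_mul.mp this
  have c1r : ∀ a, c a 1 = 1 := by
    intro a
    have := hr a 1 1
    rw [mul_one] at this
    exact left_eq_mul.mp this
  have cil : ∀ a b, c a⁻¹ b = (c a b)⁻¹ := by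
    intro a b
    have := hl a a⁻¹ b
    rw [mul_inv_cancel, c1l] at this
    exact eq_inv_of_mul_eq_one_right this.symm
  have cir : ∀ a b, c a b⁻¹ = (c a b)⁻¹ := by
    intro a b
    have := hr a b b⁻¹
    rw [mul_inv_cancel, c1r] at this
    exact eq_inv_of_mul_eq_one_right this.symm
  have cpl : ∀ (g : Kˣ) (i : ℕ) b, c (g ^ i) b = c g b ^ i := by
    intro g i b
    induction i with
    | zero => simp [c1l]
    | succ i ih => rw [pow_succ, pow_succ, hl, ih]
  have cpr : ∀ (g : Kˣ) (j : ℕ) a, c a (g ^ j) = c a g ^ j := by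
    intro g j a
    induction j with
    | zero => simp [c1r]
    | succ i ih => rw [pow_succ, pow_succ, hr, ih]
  have hneg : ∀ a : Kˣ, c a (-a) = 1 := by
    intro a
    by_cases ha : a = 1
    · subst ha
      exact c1l _
    have ha' : (1 : K) - a ≠ 0 := by
      intro h
      apply ha
      exact Units.ext (by push_cast; linear_combination -h)
    have hai : (1 : K) - (a⁻¹ : Kˣ) ≠ 0 := by
      intro h
      apply ha
      have : a⁻¹ = 1 := Units.ext (by push_cast; push_cast at h; linear_combination -h)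
      simpa using this
    let b : Kˣ := Units.mk0 _ ha'
    let b' : Kˣ := Units.mk0 _ hai
    have h1 : c a b = 1 := hs a b (by simp [b])
    have h2 : c a⁻¹ b' = 1 := hs a⁻¹ b' (by simp [b'])
    rw [cil, inv_eq_one] at h2
    have h3 : -a = b * b'⁻¹ := by
      apply Units.ext
      have e1 : (a : K) ≠ 0 := a.ne_zero
      have e2 : (b' : K) = (1 : K) - (a : K)⁻¹ := by simp [b']
      have e3 : (b : K) = (1 : K) - a := by simp [b]
      have e4 : (b' : K) ≠ 0 := b'.ne_zero
      simp only [Units.val_neg, Units.val_mul, Units.val_inv_eq_inv_val]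
      rw [e3]
      field_simp
      rw [e2]
      field_simp
      ring
    rw [h3, hr, cir, h1, h2]
    simp
  have hsq : ∀ a, c a a * c a a = 1 := by
    intro a
    have e1 : c a a = c a (-1) := by
      have e : a = (-a) * (-1) := by simp
      have e2 := hr a (-a) (-1)
      rw [← e, hneg, one_mul] at e2
      exact e2
    rw [e1, ← hr]
    simp [c1r]
  obtain ⟨g, hg⟩ := IsCyclic.exists_generator (α := Kˣ)
  have hgp : ∀ a : Kˣ, ∃ i : ℕ, g ^ i = a := by
    intro a
    have := (mem_powers_iff_mem_zpowers (x := g) (y := a)).mpr (hg a)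
    exact this
  set ω := c g g with hω
  have hω2 : ω * ω = 1 := hsq g
  have hval : ∀ i j : ℕ, c (g ^ i) (g ^ j) = ω ^ (j * i) := by
    intro i j
    rw [cpl, cpr, ← hω, pow_mul]
  have hω1 : ω = 1 := by
    by_cases hgs : IsSquare g
    · obtain ⟨s, hs'⟩ := hgs
      obtain ⟨k, rfl⟩ := hgp s
      have e : ω = c (g ^ k * g ^ k) g := by rw [← hs']
      rw [e, hl, cpl, ← hω, ← pow_add, ← two_mul, pow_mul, pow_two, hω2, one_pow]
    · obtain ⟨a, b, hab, ha, hb⟩ := exists_nonsq hgs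
      obtain ⟨i, rfl⟩ := hgp a
      obtain ⟨j, rfl⟩ := hgp b
      have h1 := hs _ _ hab
      rw [hval] at h1
      have hodd : ∀ i : ℕ, ¬ IsSquare (g ^ i) → Odd i := by
        intro i hi
        rcases Nat.even_or_odd i with h | h
        · exfalso
          apply hi
          obtain ⟨m, rfl⟩ := h
          exact ⟨g ^ m, pow_add _ _ _⟩
        · exact h
      obtain ⟨m, hm⟩ := (hodd j hb).mul (hodd i ha)
      rw [hm, pow_succ, pow_mul, pow_two, hω2, one_pow, one_mul] at h1
      exact h1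
  obtain ⟨i, rfl⟩ := hgp a
  obtain ⟨j, rfl⟩ := hgp b
  rw [hval, hω1, one_pow]

end Symbol

section Rank1

variable {K : Type*} [Field K] {Γ : Type*} [Group Γ]

/-- The element `w(t)` of a rank one group. -/
def wR (x y : K → Γ) (t : K) : Γ := x t * y (-t⁻¹) * x t

/-- The element `h(t)` of a rank one group. -/
def hR (x y : K → Γ) (t : K) : Γ := wR x y t * wR x y (-1)

/-- The relations of a rank one group. -/
structure Rk1 (x y : K → Γ) : Prop where
  xa : ∀ t u, x t * x u = x (t + u)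
  ya : ∀ t u, y t * y u = y (t + u)
  x0 : x 0 = 1
  y0 : y 0 = 1
  H1 : ∀ t u : K, t ≠ 0 → hR x y t * x u * (hR x y t)⁻¹ = x (t ^ 2 * u)
  H2 : ∀ t u : K, t ≠ 0 → hR x y t * y u * (hR x y t)⁻¹ = y ((t⁻¹) ^ 2 * u)
  N1 : ∀ u : K, wR x y 1 * x u * (wR x y 1)⁻¹ = y (-u)
  N2 : ∀ u : K, wR x y 1 * y u * (wR x y 1)⁻¹ = x (-u)

namespace Rk1

variable {x y : K → Γ} (R : Rk1 x y)
include R

theorem x_inv (t : K) : (x t)⁻¹ = x (-t) := by
  rw [inv_eq_iff_mul_eq_one, R.xa, add_neg_cancel, R.x0]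

theorem y_inv (t : K) : (y t)⁻¹ = y (-t) := by
  rw [inv_eq_iff_mul_eq_one, R.ya, add_neg_cancel, R.y0]

theorem w_inv (t : K) : (wR x y t)⁻¹ = wR x y (-t) := by
  unfold wR
  simp only [mul_inv_rev, R.x_inv, R.y_inv, inv_neg, neg_neg, mul_assoc]

theorem w_h (t : K) : wR x y t = hR x y t * wR x y 1 := by
  unfold hR
  rw [← R.w_inv 1]
  group

theorem C1 {t : K} (ht : t ≠ 0) (u : K) : wR x y t * x u * (wR x y t)⁻¹ = y (-(t⁻¹ ^ 2 * u)) := by
  have e1 := R.H2 t (-u) ht
  rw [← R.N1 u, mul_neg] at e1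
  rw [← e1, R.w_h t]
  group

theorem C2 {t : K} (ht : t ≠ 0) (u : K) : wR x y t * y u * (wR x y t)⁻¹ = x (-(t ^ 2 * u)) := by
  have e1 := R.H1 t (-u) ht
  rw [← R.N2 u, mul_neg] at e1
  rw [← e1, R.w_h t]
  group

theorem braid {t : K} (ht : t ≠ 0) : y (-t⁻¹) * x t * y (-t⁻¹) = wR x y t := by
  have e1 := R.C1 ht t
  have e2 : t⁻¹ ^ 2 * t = t⁻¹ := by field_simp
  rw [e2, mul_inv_eq_iff_eq_mul] at e1
  have e3 : wR x y t * x t = y (-t⁻¹) * wR x y t := e1
  unfold wR at e3
  have e4 : (x t * y (-t⁻¹) * x t) * x t = (y (-t⁻¹) * x t * y (-t⁻¹)) * x t := by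
    rw [e3]
    group
  exact (mul_right_cancel e4).symm

theorem y_w1 (u : K) : y u * wR x y 1 = wR x y 1 * x (-u) := by
  have e1 := R.C2 (t := -1) (by simp) u
  rw [← R.w_inv 1, inv_inv] at e1
  have : (-1 : K) ^ 2 * u = u := by ring
  rw [this] at e1
  rw [← e1]
  group

theorem w1_y (u : K) : wR x y 1 * y u = x (-u) * wR x y 1 := by
  rw [← R.N2 u]
  group

theorem steinberg {a b : K} (ha : a ≠ 0) (hb : b ≠ 0) (hab : a + b = 1) :
    wR x y a * wR x y b = wR x y (a / b) * wR x y 1 := by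
  set w1 := wR x y 1 with hw1
  set A := a / b with hA
  have hA0 : A ≠ 0 := div_ne_zero ha hb
  have hAi : A⁻¹ = b / a := by rw [hA, inv_div]
  have e1 : x a * x b = x 1 := by rw [R.xa, hab]
  have e2 : x 1 = y 1 * w1 * y 1 := by
    have := R.braid (t := (1 : K)) one_ne_zero
    rw [inv_one, ← R.y_inv] at this
    rw [hw1, ← this]
    group
  have e3 : y (-a⁻¹) * y 1 = y (-A⁻¹) := by
    rw [R.ya, hAi]
    congr 1
    have hb' : b = 1 - a := by linear_combination hab
    rw [hb']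
    field_simp
    ring
  have e4 : y 1 * y (-b⁻¹) = y (-A) := by
    rw [R.ya, hA]
    congr 1
    have ha' : a = 1 - b := by linear_combination hab
    rw [ha']
    field_simp
    ring
  have e5 : w1 * y (-A) = x A * w1 := by
    rw [hw1, R.w1_y, neg_neg]
  have e6 : y (-A⁻¹) * x A = wR x y A * y (A⁻¹) := by
    have := R.braid hA0
    rw [← this, mul_assoc _ _ (y (A⁻¹)), R.ya]
    simp [R.y0]
  have e7 : y (A⁻¹) * w1 = w1 * x (-A⁻¹) := R.y_w1 _
  have e8 : x (-A⁻¹) * x b = x (-(b ^ 2 / a)) := by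
    rw [R.xa, hAi]
    congr 1
    have hb' : b = 1 - a := by linear_combination hab
    rw [hb']
    field_simp
    ring
  have e9 : x a * wR x y A = wR x y A * y (-(b ^ 2 / a)) := by
    have h1 := R.C1 (t := -A) (neg_ne_zero.mpr hA0) a
    rw [← R.w_inv A, inv_inv] at h1
    have h2 : (-A)⁻¹ ^ 2 * a = b ^ 2 / a := by
      rw [inv_neg, neg_sq, hAi]
      field_simp
    rw [h2] at h1
    rw [← h1]
    group
  have e10 : y (-(b ^ 2 / a)) * w1 = w1 * x (b ^ 2 / a) := by
    rw [hw1, R.y_w1, neg_neg]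
  calc wR x y a * wR x y b = x a * y (-a⁻¹) * (x a * x b) * y (-b⁻¹) * x b := by
        simp only [wR, mul_assoc]
    _ = x a * (y (-a⁻¹) * y 1) * w1 * (y 1 * y (-b⁻¹)) * x b := by
        rw [e1, e2]
        simp only [mul_assoc]
    _ = x a * (y (-A⁻¹) * (w1 * y (-A))) * x b := by
        rw [e3, e4]
        simp only [mul_assoc]
    _ = x a * ((y (-A⁻¹) * x A) * w1) * x b := by
        rw [e5]
        simp only [mul_assoc]
    _ = x a * wR x y A * (y (A⁻¹) * w1) * x b := by
        rw [e6]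
        simp only [mul_assoc]
    _ = (x a * wR x y A) * w1 * (x (-A⁻¹) * x b) := by
        rw [e7]
        simp only [mul_assoc]
    _ = wR x y A * (y (-(b ^ 2 / a)) * w1) * x (-(b ^ 2 / a)) := by
        rw [e8, e9]
        simp only [mul_assoc]
    _ = wR x y A * w1 * (x (b ^ 2 / a) * x (-(b ^ 2 / a))) := by
        rw [e10]
        simp only [mul_assoc]
    _ = wR x y A * w1 := by
        rw [R.xa, add_neg_cancel, R.x0, mul_one]

theorem w1_conj {b : K} (hb : b ≠ 0) : wR x y 1 * wR x y b * (wR x y 1)⁻¹ = wR x y b⁻¹ := by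
  have e1 : wR x y 1 * wR x y b * (wR x y 1)⁻¹ =
      (wR x y 1 * x b * (wR x y 1)⁻¹) * (wR x y 1 * y (-b⁻¹) * (wR x y 1)⁻¹) * (wR x y 1 * x b * (wR x y 1)⁻¹) := by
    conv_lhs => rw [wR.eq_def x y b]
    group
  rw [e1, R.N1, R.N2, neg_neg]
  have := R.braid (t := b⁻¹) (inv_ne_zero hb)
  rw [inv_inv] at this
  exact this

/-- The Steinberg relation. -/
theorem h_st {a b : K} (ha : a ≠ 0) (hb : b ≠ 0) (hab : a + b = 1) : hR x y a * hR x y b⁻¹ = hR x y (a / b) := by
  have e1 := R.steinberg ha hb hab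
  have e2 : wR x y 1 * wR x y b = hR x y b⁻¹ * wR x y 1 * wR x y 1 := by
    rw [← R.w_h, ← R.w1_conj hb]
    group
  rw [R.w_h a, mul_assoc, e2, R.w_h (a / b)] at e1
  have e3 : hR x y a * hR x y b⁻¹ * wR x y 1 * wR x y 1 = hR x y (a / b) * wR x y 1 * wR x y 1 := by
    rw [← e1]
    group
  exact mul_right_cancel (mul_right_cancel e3)

section Partner

variable {g : Kˣ → Γ} (hg1 : ∀ (v : Kˣ) (u : K), g v * x u * (g v)⁻¹ = x ((v : K) * u))
  (hg2 : ∀ (v : Kˣ) (u : K), g v * y u * (g v)⁻¹ = y ((v : K)⁻¹ * u))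
include hg1 hg2

theorem g_w (v : Kˣ) (t : K) : g v * wR x y t * (g v)⁻¹ = wR x y ((v : K) * t) := by
  have e1 : g v * wR x y t * (g v)⁻¹ =
      (g v * x t * (g v)⁻¹) * (g v * y (-t⁻¹) * (g v)⁻¹) * (g v * x t * (g v)⁻¹) := by
    conv_lhs => rw [wR.eq_def x y t]
    group
  rw [e1, hg1, hg2, wR]
  congr 3
  have : (v : K) ≠ 0 := v.ne_zero
  rw [mul_inv]
  ring

theorem g_h (v : Kˣ) (t : K) : g v * hR x y t * (g v)⁻¹ = hR x y ((v : K) * t) * (hR x y v)⁻¹ := by
  have e1 : g v * hR x y t * (g v)⁻¹ = (g v * wR x y t * (g v)⁻¹) * (g v * wR x y (-1) * (g v)⁻¹) := by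
    unfold hR
    group
  rw [e1, R.g_w hg1 hg2, R.g_w hg1 hg2, mul_neg, mul_one, ← R.w_inv, R.w_h _, R.w_h (v : K)]
  group

end Partner

end Rk1

/-- The symbol of a rank one group. -/
def cU (x y : K → Γ) (a b : Kˣ) : Γ := hR x y a * hR x y b * (hR x y ((a * b : Kˣ) : K))⁻¹

theorem central_inv {c : Γ} (h : ∀ z, c * z = z * c) : ∀ z, c⁻¹ * z = z * c⁻¹ := by
  intro z
  calc c⁻¹ * z = c⁻¹ * (z * c) * c⁻¹ := by group
    _ = c⁻¹ * (c * z) * c⁻¹ := by rw [h]
    _ = z * c⁻¹ := by group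

theorem cc_central_right {g z P : Γ} (hz : ∀ w, z * w = w * z) : cc g (z * P) = cc g P := by
  unfold cc
  have e1 : g * (z * P) = z * (g * P) := by
    rw [← mul_assoc, ← hz, mul_assoc]
  have e2 : (z * P)⁻¹ = P⁻¹ * z⁻¹ := by group
  have e3 : ∀ w, z⁻¹ * w = w * z⁻¹ := central_inv hz
  rw [e1, e2]
  calc z * (g * P) * g⁻¹ * (P⁻¹ * z⁻¹) = z * (g * P * g⁻¹ * P⁻¹ * z⁻¹) := by group
    _ = z * (z⁻¹ * (g * P * g⁻¹ * P⁻¹)) := by rw [e3]
    _ = _ := by group

theorem cc_central_left {g z P : Γ} (hz : ∀ w, z * w = w * z) : cc (z * g) P = cc g P := by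
  have e1 : ∀ x y : Γ, cc x y = (cc y x)⁻¹ := by
    intro x y
    unfold cc
    group
  rw [e1, cc_central_right hz, ← e1]

theorem cc_mul_right {g P Q : Γ} (hz : ∀ w, cc g Q * w = w * cc g Q) : cc g (P * Q) = cc g P * cc g Q := by
  have e1 : cc g (P * Q) = cc g P * (P * cc g Q * P⁻¹) := by
    unfold cc
    group
  rw [e1, ← hz P]
  group

theorem cc_mul_left {a a' P : Γ} (hz : ∀ w, cc a' P * w = w * cc a' P) : cc (a * a') P = cc a P * cc a' P := by
  have e1 : cc (a * a') P = a * cc a' P * a⁻¹ * cc a P := by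
    unfold cc
    group
  rw [e1, ← hz a]
  simp only [mul_inv_cancel_right]
  exact hz _

/-- The relation `h(a) h(b) = h(ab)` in a rank one group over a finite field. -/
theorem Rk1.h_mul [Finite K] {x y : K → Γ} (R : Rk1 x y) {g : Kˣ → Γ}
    (hg1 : ∀ (v : Kˣ) (u : K), g v * x u * (g v)⁻¹ = x ((v : K) * u))
    (hg2 : ∀ (v : Kˣ) (u : K), g v * y u * (g v)⁻¹ = y ((v : K)⁻¹ * u))
    (hgc : ∀ (v v' : Kˣ) (z : Γ), (g v * g v' * (g (v * v'))⁻¹) * z = z * (g v * g v' * (g (v * v'))⁻¹))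
    (hc : ∀ (a b : Kˣ) (z : Γ), cU x y a b * z = z * cU x y a b) {a b : K} (ha : a ≠ 0) (hb : b ≠ 0) :
    hR x y a * hR x y b = hR x y (a * b) := by
  have hk : ∀ v t : Kˣ, cc (g v) (hR x y t) = (cU x y t v)⁻¹ := by
    intro v t
    have e1 := R.g_h hg1 hg2 v t
    unfold cc
    rw [e1]
    unfold cU
    simp only [mul_inv_rev, inv_inv, Units.val_mul, mul_comm (t : K) (v : K)]
    group
  have hkc : ∀ (v t : Kˣ) (z : Γ), cc (g v) (hR x y t) * z = z * cc (g v) (hR x y t) := by
    intro v t z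
    rw [hk]
    exact central_inv (hc t v) z
  have hinv : ∀ (c : Γ), (∀ z, c * z = z * c) → ∀ z, c⁻¹ * z = z * c⁻¹ := fun c h => central_inv h
  have hkt : ∀ v t t' : Kˣ, cc (g v) (hR x y ((t * t' : Kˣ) : K)) = cc (g v) (hR x y t) * cc (g v) (hR x y t') := by
    intro v t t'
    have e1 : hR x y ((t * t' : Kˣ) : K) = (cU x y t t')⁻¹ * (hR x y t * hR x y t') := by
      unfold cU
      group
    rw [e1, cc_central_right (hinv _ (hc t t')), cc_mul_right (hkc v t')]
  have hkv : ∀ v v' t : Kˣ, cc (g (v * v')) (hR x y t) = cc (g v) (hR x y t) * cc (g v') (hR x y t) := by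
    intro v v' t
    have e1 : g (v * v') = (g v * g v' * (g (v * v'))⁻¹)⁻¹ * (g v * g v') := by group
    rw [e1, cc_central_left (hinv _ (hgc v v')), cc_mul_left (hkc v' t)]
  have hsym : ∀ a b : Kˣ, cU x y a b = (cc (g b) (hR x y a))⁻¹ := by
    intro a b
    rw [hk, inv_inv]
  have hcm : ∀ (u v : Γ), (∀ z, u * z = z * u) → (u * v)⁻¹ = u⁻¹ * v⁻¹ := by
    intro u v h
    rw [_root_.mul_inv_rev]
    exact (hinv u h v⁻¹).symm
  have hlm : ∀ a a' b : Kˣ, cU x y (a * a') b = cU x y a b * cU x y a' b := by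
    intro a a' b
    rw [hsym, hsym, hsym, hkt]
    exact hcm _ _ (hkc b a)
  have hrm : ∀ a b b' : Kˣ, cU x y a (b * b') = cU x y a b * cU x y a b' := by
    intro a b b'
    rw [hsym, hsym, hsym, hkv]
    exact hcm _ _ (hkc b a)
  have htriv := symbol_trivial (cU x y) hlm hrm (by
    intro a b hab
    have h1 := R.h_st a.ne_zero b.ne_zero hab
    have h3 : cU x y a b⁻¹ = 1 := by
      unfold cU
      rw [mul_inv_eq_one, Units.val_inv_eq_inv_val, h1, Units.val_mul, Units.val_inv_eq_inv_val, div_eq_mul_inv]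
    have h4 := hrm a b b⁻¹
    have h5 := hrm a 1 1
    rw [mul_one] at h5
    have h6 : cU x y a 1 = 1 := left_eq_mul.mp h5
    rw [mul_inv_cancel, h3, h6, mul_one] at h4
    exact h4.symm)
  have h2 := htriv (Units.mk0 a ha) (Units.mk0 b hb)
  unfold cU at h2
  rw [mul_inv_eq_one] at h2
  simpa using h2

end Rank1

end Cfsg.Agent.Lib.CT
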