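import Cfsg.Agent.Lib.CT.Sch3

/-!
Central extensions of Chevalley groups of simply laced types of large rank: conjugation by `n` and `h`
and the relations `h(a) h(b) = h(ab)` for all roots, over finite fields.
-/

set_option autoImplicit false
set_option linter.unusedSimpArgs false
set_option linter.unusedVariables false
set_option linter.unusedSectionVars false

namespace Cfsg.Agent.Lib.CT

open Cfsg Cfsg.Lie Cfsg.Agent.Lib.Chev
open Good2 (NN)

variable {D : ChevalleyDatum} {K : Type*} [Field K] {Γ : Type*} [Group Γ] {G : Good5 D} {τ : Γ →* GL D.Idx K}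
  {X : ℕ → K → Γ}

/-- Table facts about fundamental roots. -/
def chkS3 (T : Tbl) (simple : ℕ → ℕ) (S : ℕ → ℕ → ℤ) (nbr : ℕ → ℕ) : Bool :=
  allLt T.l fun i => decide (T.car i (simple i) = 2) && decide (T.car (nbr i) (simple i) = -1) &&
    decide (S i (simple i) = -1)

section Conj

variable (h : RS G X (fun r => r < D.nroots) τ)
include h

theorem tau_word (w : List (ℕ × K)) (hw : ∀ a ∈ w, a.1 < D.nroots) : τ (wX X w) = G.thetaG (wB D K w) := by
  rw [h.theta_word w (fun a ha => Or.inl (hw a ha)), G.thetaG_word]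

theorem tau_nX {r : ℕ} (hr : r < D.nroots) (t : K) : τ (nX D X r t) = G.thetaG (nB D K r t) := by
  refine tau_word h _ ?_
  intro a ha
  simp only [ChevalleyDatum.nWord, List.mem_cons, List.not_mem_nil, or_false] at ha
  rcases ha with rfl | rfl | rfl
  · exact hr
  · exact G.neg_lt hr
  · exact hr

theorem tau_hX {r : ℕ} (hr : r < D.nroots) (t : K) : τ (hX D X r t) = G.thetaG (hB D K r t) := by
  rw [hX_eq, hB_eq, map_mul, map_mul, tau_nX h hr, tau_nX h hr]

theorem nX_mem_LX {k : ℕ} (hk : k < D.rank) (t : K) : nX D X (D.simple k) t ∈ RS.LX X (fun r => r < D.nroots) D k := by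
  have hp := G.simple_lt hk
  rw [nX_eq]
  have g1 := gen_mem (x := X) (Ψ := fun r => r < D.nroots) (P := fun r => r = D.simple k ∨ r = D.neg (D.simple k))
    (r := D.simple k) (Or.inl rfl) hp t
  have g2 := gen_mem (x := X) (Ψ := fun r => r < D.nroots) (P := fun r => r = D.simple k ∨ r = D.neg (D.simple k))
    (r := D.neg (D.simple k)) (Or.inr rfl) (G.neg_lt hp) (-t⁻¹)
  exact Subgroup.mul_mem _ (Subgroup.mul_mem _ g1 g2) g1

theorem hX_mem_LX {k : ℕ} (hk : k < D.rank) (t : K) : hX D X (D.simple k) t ∈ RS.LX X (fun r => r < D.nroots) D k := by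
  rw [hX_eq]
  exact Subgroup.mul_mem _ (nX_mem_LX h hk t) (nX_mem_LX h hk _)

/-- Conjugation of all root elements by an element of a rank one subgroup. -/
theorem all_conjX (C : CTData G) {k : ℕ} (hk : k < D.rank) {y : Γ} (hy : y ∈ RS.LX X (fun r => r < D.nroots) D k)
    (π : ℕ → ℕ) (c : ℕ → K) (hlt : ∀ s, s < D.nroots → π s < D.nroots)
    (h2 : ∀ s, QP D k s → QP D k (π s)) (h3 : ∀ s, s < D.nroots → π (D.neg s) = D.neg (π s))
    (h1 : ∀ s, s < D.nroots → ∀ u : K, τ y * G.xgt s u * (τ y)⁻¹ = G.xgt (π s) (c s * u))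
    (hπ : ∀ r s, r < D.nroots → s < D.nroots → s ≠ r → s ≠ D.neg r → π s ≠ π r ∧ π s ≠ D.neg (π r))
    (hcomp : ∀ r s, r < D.nroots → s < D.nroots → s ≠ r → s ≠ D.neg r → ∀ t u : K,
      D.commWord K (π r) (π s) (c r * t) (c s * u) = (D.commWord K r s t u).map fun q => (π q.1, c q.1 * q.2))
    {s : ℕ} (hs : s < D.nroots) (u : K) :
    y * X s u * y⁻¹ = X (π s) (c s * u) := by
  have hp := G.simple_lt hk
  have hrig : ∀ s, s < D.nroots → s ≠ D.simple k → s ≠ D.neg (D.simple k) → ∀ u : K,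
      y * X s u * y⁻¹ = X (π s) (c s * u) := by
    intro s hs hsp hsn u
    exact h.rig_all hk hp hy π c (fun s h4 h5 => ⟨h2 s h4, hlt s h5⟩) h3 h1 hs hsp hsn u
  by_cases hsp : s = D.simple k
  · subst hsp
    obtain ⟨hj, e1, e2, e3, e4, e5, e6, ⟨C', a, hC, ht⟩, hr⟩ := C.pick hk
    have hrl := hr.1
    have hsl := G.neg_lt (G.simple_lt hj)
    have hπ' := hπ _ _ hrl hsl e1 e2
    exact h.ext_single π c hrl hsl e1 e2 hC ⟨hlt _ hrl, hlt _ hsl, hπ'.1, hπ'.2⟩ ht
      (fun t u => hcomp _ _ hrl hsl e1 e2 t u) (fun u => hrig _ hrl e3 e4 u) (fun u => hrig _ hsl e5 e6 u) u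
  by_cases hsn : s = D.neg (D.simple k)
  · subst hsn
    obtain ⟨hj, e1, e2, e3, e4, e5, e6, ⟨C', a, hC, ht⟩, hr⟩ := C.pick hk
    set j := C.nbr k
    set r := G.W j (D.simple k)
    set s := D.neg (D.simple j)
    have hrl := hr.1
    have hsl : s < D.nroots := G.neg_lt (G.simple_lt hj)
    have hnr := G.neg_lt hrl
    have hns := G.neg_lt hsl
    have e1' : D.neg s ≠ D.neg r := by
      intro e
      apply e1
      rw [← G.neg_neg hsl, e, G.neg_neg hrl]
    have e2' : D.neg s ≠ D.neg (D.neg r) := by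
      rw [G.neg_neg hrl]
      intro e
      apply e2
      rw [← e, G.neg_neg hsl]
    have ht' : D.commTerms (D.neg r) (D.neg s) = [(D.neg (D.simple k), -(-1) ^ (a + 1) * C', a, 1)] := by
      rw [G.t1 hrl hsl e1 e2, ht]
      rfl
    have hC' : -(-1 : ℤ) ^ (a + 1) * C' = 1 ∨ -(-1 : ℤ) ^ (a + 1) * C' = -1 := by
      rcases neg_one_pow_eq_or ℤ (a + 1) with e | e <;> rcases hC with rfl | rfl <;> simp [e]
    have hπ' := hπ _ _ hnr hns e1' e2'
    refine h.ext_single π c hnr hns e1' e2' hC' ⟨hlt _ hnr, hlt _ hns, hπ'.1, hπ'.2⟩ ht'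
      (fun t u => hcomp _ _ hnr hns e1' e2' t u) (fun u => hrig _ hnr ?_ ?_ u) (fun u => hrig _ hns ?_ ?_ u) u
    · intro e
      apply e4
      rw [← e, G.neg_neg hrl]
    · intro e
      apply e3
      rw [← G.neg_neg hrl, e, G.neg_neg hp]
    · intro e
      apply e6
      rw [← e, G.neg_neg hsl]
    · intro e
      apply e5
      rw [← G.neg_neg hsl, e, G.neg_neg hp]
  exact hrig s hs hsp hsn u

/-- Conjugation by `n_k`. -/
theorem nX_conj (C : CTData G) {k : ℕ} (hk : k < D.rank) {s : ℕ} (hs : s < D.nroots) (u : K) :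
    nX D X (D.simple k) 1 * X s u * (nX D X (D.simple k) 1)⁻¹ = X (G.W k s) (((G.S k s : ℤ) : K) * u) := by
  have hp := G.simple_lt hk
  refine all_conjX h C hk (nX_mem_LX h hk 1) (G.W k) (fun s => ((G.S k s : ℤ) : K)) (fun s hs => G.W_lt hk hs)
    (fun s h => G.QP_W hk h) (fun s hs => G.W_neg hk hs) ?_ ?_ ?_ hs u
  · intro s hs u
    rw [tau_nX h hp, G.theta_nB' hk, G.xgt_of hs, G.xgt_of (G.W_lt hk hs)]
    exact G.toGood2.nG_conj_x ⟨k, hk⟩ hs u
  · intro r s hr hs h1 h2
    constructor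
    · exact fun e => h1 (G.W_inj hk hs hr e)
    · intro e
      rw [← G.W_neg hk hr] at e
      exact h2 (G.W_inj hk hs (G.neg_lt hr) e)
  · intro r s hr hs h1 h2 t u
    exact comm_W G hk hr hs h1 h2 t u

/-- Conjugation by `h_k(t)`. -/
theorem hX_conj (C : CTData G) {k : ℕ} (hk : k < D.rank) {t : K} (ht : t ≠ 0) {s : ℕ} (hs : s < D.nroots) (u : K) :
    hX D X (D.simple k) t * X s u * (hX D X (D.simple k) t)⁻¹ = X s (chiP D (D.simple k) t s * u) := by
  have hp := G.simple_lt hk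
  have hχ := G.chiP_isChi (D.simple k) ht
  refine all_conjX h C hk (hX_mem_LX h hk t) (fun s => s) (chiP D (D.simple k) t) (fun s hs => hs)
    (fun s h => h) (fun s hs => rfl) ?_ ?_ ?_ hs u
  · intro s hs u
    rw [tau_hX h hp, G.theta_hB' hk ht, G.xgt_of hs, G.xgt_of hs, mul_inv_eq_iff_eq_mul]
    apply Units.ext
    simp only [Units.val_mul, Good0.xg_val, Good2.hG_val]
    rw [G.h_eq hp ht]
    change dgM D _ * _ = _ * dgM D _
    exact G.dgM_mul_x hχ hs u
  · intro r s hr hs h1 h2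
    exact ⟨h1, h2⟩
  · intro r s hr hs h1 h2 a b
    simp only [ChevalleyDatum.commWord, List.map_map]
    apply List.map_congr_left
    intro c hc
    simp only [Function.comp_apply, Prod.mk.injEq, true_and]
    rw [G.chi_commTerms hχ hr hs hc]
    have e1 : (-(chiP D (D.simple k) t r * a)) ^ c.2.2.1 = chiP D (D.simple k) t r ^ c.2.2.1 * (-a) ^ c.2.2.1 := by
      rw [← mul_pow]
      congr 1
      ring
    rw [e1, mul_pow]
    ring

theorem tau_hX_mul {r : ℕ} (hr : r < D.nroots) {a b : K} (ha : a ≠ 0) (hb : b ≠ 0) :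
    τ (hX D X r a * hX D X r b) = τ (hX D X r (a * b)) := by
  rw [map_mul, tau_hX h hr, tau_hX h hr, tau_hX h hr]
  apply Units.ext
  rw [Units.val_mul, G.theta_hB, G.theta_hB, G.theta_hB, G.h_eq hr ha, G.h_eq hr hb, G.h_eq hr (mul_ne_zero ha hb),
    G.Dg_mul r ha hb]

end Conj

/-- The facts of the tables about fundamental roots. -/
structure SchF (G : Good5 D) (C : CTData G) : Prop where
  chk : chkS3 (tblOf D) D.simple G.S C.nbr = true

section Main

variable (h : RS G X (fun r => r < D.nroots) τ) (C : CTData G) (F : SchF G C) (hz : ∀ z, τ z = 1 → ∀ g, g * z = z * g)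
include h F

theorem SchF.car_self {i : ℕ} (hi : i < D.rank) : D.cartan i (D.simple i) = 2 := by
  have := (allLt_iff _ _).mp F.chk i hi
  simp only [Bool.and_eq_true, decide_eq_true_eq] at this
  exact this.1.1

theorem SchF.car_nbr {i : ℕ} (hi : i < D.rank) : D.cartan (C.nbr i) (D.simple i) = -1 := by
  have := (allLt_iff _ _).mp F.chk i hi
  simp only [Bool.and_eq_true, decide_eq_true_eq] at this
  exact this.1.2

theorem SchF.S_self {i : ℕ} (hi : i < D.rank) : G.S i (D.simple i) = -1 := by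
  have := (allLt_iff _ _).mp F.chk i hi
  simp only [Bool.and_eq_true, decide_eq_true_eq] at this
  exact this.2

theorem chi_self {i : ℕ} (hi : i < D.rank) (t : K) : chiP D (D.simple i) t (D.simple i) = t ^ 2 := by
  unfold chiP
  rw [G.pairing_simple hi, F.car_self h C hi]
  norm_cast

theorem chi_self_neg {i : ℕ} (hi : i < D.rank) (t : K) : chiP D (D.simple i) t (D.neg (D.simple i)) = t⁻¹ ^ 2 := by
  unfold chiP
  rw [G.pairing_neg _ _ (G.simple_lt hi), G.pairing_simple hi, F.car_self h C hi]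
  rw [inv_pow, zpow_neg]
  norm_cast

theorem chi_nbr {i : ℕ} (hi : i < D.rank) (hj : C.nbr i < D.rank) (t : K) : chiP D (D.simple (C.nbr i)) t (D.simple i) = t⁻¹ := by
  unfold chiP
  rw [G.pairing_simple hj, F.car_nbr h C hi, zpow_neg, zpow_one]

theorem chi_nbr_neg {i : ℕ} (hi : i < D.rank) (hj : C.nbr i < D.rank) (t : K) :
    chiP D (D.simple (C.nbr i)) t (D.neg (D.simple i)) = t := by
  unfold chiP
  rw [G.pairing_neg _ _ (G.simple_lt hi), G.pairing_simple hj, F.car_nbr h C hi, neg_neg, zpow_one]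

omit h F in
theorem hR_eq (x : ℕ → K → Γ) (r : ℕ) (t : K) : hR (x r) (x (D.neg r)) t = hX D x r t := by
  rw [hX_eq, nX_eq, nX_eq]
  rfl

omit h F in
theorem wR_eq (x : ℕ → K → Γ) (r : ℕ) (t : K) : wR (x r) (x (D.neg r)) t = nX D x r t := by
  rw [nX_eq]
  rfl

theorem rk1 {i : ℕ} (hi : i < D.rank) : Rk1 (X (D.simple i)) (X (D.neg (D.simple i))) := by
  have hp := G.simple_lt hi
  have hn := G.neg_lt hp
  have hS := F.S_self h C hi
  refine ⟨h.R1 hp, h.R1 hn, h.zero _, h.zero _, ?_, ?_, ?_, ?_⟩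
  · intro t u ht
    rw [hR_eq X (D.simple i) t, hX_conj h C hi ht hp u, chi_self h C F hi]
  · intro t u ht
    rw [hR_eq X (D.simple i) t, hX_conj h C hi ht hn u, chi_self_neg h C F hi]
  · intro u
    rw [wR_eq X (D.simple i) 1, nX_conj h C hi hp u, G.W_simple hi, hS]
    congr 1
    push_cast
    ring
  · intro u
    rw [wR_eq X (D.simple i) 1, nX_conj h C hi hn u, G.W_neg hi hp, G.W_simple hi, G.neg_neg hp, G.S_neg hi hp, hS]
    congr 1
    push_cast
    ring

omit F in
include hz in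
theorem central_hX {r : ℕ} (hr : r < D.nroots) {a b : K} (ha : a ≠ 0) (hb : b ≠ 0) (g : Γ) :
    (hX D X r a * hX D X r b * (hX D X r (a * b))⁻¹) * g = g * (hX D X r a * hX D X r b * (hX D X r (a * b))⁻¹) := by
  have e : τ (hX D X r a * hX D X r b * (hX D X r (a * b))⁻¹) = 1 := by
    rw [map_mul, tau_hX_mul h hr ha hb, map_inv, mul_inv_cancel]
  exact (hz _ e g).symm

include hz in
/-- The relation at fundamental roots. -/
theorem R3_simple [Finite K] {i : ℕ} (hi : i < D.rank) {a b : K} (ha : a ≠ 0) (hb : b ≠ 0) :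
    hX D X (D.simple i) a * hX D X (D.simple i) b = hX D X (D.simple i) (a * b) := by
  obtain ⟨hj, -⟩ := C.pick hi
  have hp := G.simple_lt hi
  have hn := G.neg_lt hp
  have hjp := G.simple_lt hj
  have e := (rk1 h C F hi).h_mul (g := fun v : Kˣ => hX D X (D.simple (C.nbr i)) (v : K)⁻¹) (a := a) (b := b) ?_ ?_ ?_ ?_ ha hb
  · rwa [hR_eq X (D.simple i) a, hR_eq X (D.simple i) b, hR_eq X (D.simple i) (a * b)] at e
  · intro v u
    rw [hX_conj h C hj (inv_ne_zero v.ne_zero) hp u, chi_nbr h C F hi hj, inv_inv]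
  · intro v u
    rw [hX_conj h C hj (inv_ne_zero v.ne_zero) hn u, chi_nbr_neg h C F hi hj]
  · intro v v' z
    have e1 : ((v * v' : Kˣ) : K)⁻¹ = (v : K)⁻¹ * (v' : K)⁻¹ := by
      rw [Units.val_mul, mul_inv]
    rw [e1]
    exact central_hX h hz hjp (inv_ne_zero v.ne_zero) (inv_ne_zero v'.ne_zero) z
  · intro a b z
    have e2 : cU (X (D.simple i)) (X (D.neg (D.simple i))) a b =
        hX D X (D.simple i) a * hX D X (D.simple i) b * (hX D X (D.simple i) ((a : K) * b))⁻¹ := by
      unfold cU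
      rw [hR_eq X (D.simple i) a, hR_eq X (D.simple i) b, hR_eq X (D.simple i), Units.val_mul]
    rw [e2]
    exact central_hX h hz hp a.ne_zero b.ne_zero z

/-- The conjugates of fundamental rank one groups. -/
def ConjQ (X : ℕ → K → Γ) (D : ChevalleyDatum) (r : ℕ) : Prop :=
  ∃ i, i < D.rank ∧ ∃ (y : Γ) (ε : K), (ε = 1 ∨ ε = -1) ∧ (∀ u, y * X (D.simple i) u * y⁻¹ = X r (ε * u)) ∧
    ∀ u, y * X (D.neg (D.simple i)) u * y⁻¹ = X (D.neg r) (ε * u)

theorem conjQ_W {k r : ℕ} (hk : k < D.rank) (hr : r < D.nroots) (hQ : ConjQ X D r) : ConjQ X D (G.W k r) := by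
  obtain ⟨i, hi, y, ε, hε, h1, h2⟩ := hQ
  refine ⟨i, hi, nX D X (D.simple k) 1 * y, ((G.S k r : ℤ) : K) * ε, ?_, ?_, ?_⟩
  · rcases G.S_cases hk hr with e | e <;> rcases hε with rfl | rfl <;> simp [e]
  · intro u
    have e1 : nX D X (D.simple k) 1 * y * X (D.simple i) u * (nX D X (D.simple k) 1 * y)⁻¹ =
        nX D X (D.simple k) 1 * (y * X (D.simple i) u * y⁻¹) * (nX D X (D.simple k) 1)⁻¹ := by group
    rw [e1, h1, nX_conj h C hk hr, mul_assoc]
  · intro u
    have e1 : nX D X (D.simple k) 1 * y * X (D.neg (D.simple i)) u * (nX D X (D.simple k) 1 * y)⁻¹ =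
        nX D X (D.simple k) 1 * (y * X (D.neg (D.simple i)) u * y⁻¹) * (nX D X (D.simple k) 1)⁻¹ := by group
    rw [e1, h2, nX_conj h C hk (G.neg_lt hr), G.W_neg hk hr, G.S_neg hk hr, mul_assoc]

theorem conjQ_neg {r : ℕ} (hr : r < D.nroots) (hQ : ConjQ X D r) : ConjQ X D (D.neg r) := by
  obtain ⟨i, hi, y, ε, hε, h1, h2⟩ := hQ
  have hp := G.simple_lt hi
  have hS := F.S_self h C hi
  refine ⟨i, hi, y * nX D X (D.simple i) 1, -ε, ?_, ?_, ?_⟩
  · rcases hε with rfl | rfl <;> simp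
  · intro u
    have e1 : y * nX D X (D.simple i) 1 * X (D.simple i) u * (y * nX D X (D.simple i) 1)⁻¹ =
        y * (nX D X (D.simple i) 1 * X (D.simple i) u * (nX D X (D.simple i) 1)⁻¹) * y⁻¹ := by group
    rw [e1, nX_conj h C hi hp, G.W_simple hi, hS, h2]
    congr 1
    push_cast
    ring
  · intro u
    have e1 : y * nX D X (D.simple i) 1 * X (D.neg (D.simple i)) u * (y * nX D X (D.simple i) 1)⁻¹ =
        y * (nX D X (D.simple i) 1 * X (D.neg (D.simple i)) u * (nX D X (D.simple i) 1)⁻¹) * y⁻¹ := by group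
    rw [e1, nX_conj h C hi (G.neg_lt hp), G.W_neg hi hp, G.W_simple hi, G.neg_neg hp, G.S_neg hi hp, hS, h1, G.neg_neg hr]
    congr 1
    push_cast
    ring

theorem conjQ_all {r : ℕ} (hr : r < D.nroots) : ConjQ X D r := by
  have hpos : ∀ r, r < D.nroots → NN D ≤ r → ConjQ X D r := by
    refine G.pos_induct ?_ ?_
    · intro i hi
      refine ⟨i, hi, 1, 1, Or.inl rfl, ?_, ?_⟩ <;> simp
    · intro i r hi hr hN hN' hlt hP
      have := conjQ_W h C F (k := i) hi (G.W_lt hi hr) hP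
      rwa [G.W_W hi hr] at this
  by_cases hN : NN D ≤ r
  · exact hpos r hr hN
  · have hn := G.neg_lt hr
    have h5 : NN D ≤ D.neg r := by
      rw [G.neg_eq hr]
      have := G.n_even
      show D.nroots / 2 ≤ D.nroots - 1 - r
      have h2 : r < D.nroots / 2 := by
        have : ¬ (D.nroots / 2 ≤ r) := hN
        omega
      omega
    have := conjQ_neg h C F hn (hpos _ hn h5)
    rwa [G.neg_neg hr] at this

omit h F in
theorem conj_hX {p r : ℕ} {y : Γ} (h1 : ∀ u, y * X p u * y⁻¹ = X r u) (h2 : ∀ u, y * X (D.neg p) u * y⁻¹ = X (D.neg r) u)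
    (t : K) : y * hX D X p t * y⁻¹ = hX D X r t := by
  have e1 : ∀ t : K, y * nX D X p t * y⁻¹ = nX D X r t := by
    intro t
    rw [nX_eq, nX_eq, ← h1, ← h2]
    group
  rw [hX_eq, hX_eq, ← e1, ← e1]
  group

include hz in
/-- The relation at all roots. -/
theorem R3_all [Finite K] {r : ℕ} (hr : r < D.nroots) {a b : K} (ha : a ≠ 0) (hb : b ≠ 0) :
    hX D X r a * hX D X r b = hX D X r (a * b) := by
  obtain ⟨i, hi, y, ε, hε, h1, h2⟩ := conjQ_all h C F hr
  have key : ∃ y' : Γ, (∀ u, y' * X (D.simple i) u * y'⁻¹ = X r u) ∧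
      ∀ u, y' * X (D.neg (D.simple i)) u * y'⁻¹ = X (D.neg r) u := by
    rcases hε with rfl | rfl
    · refine ⟨y, ?_, ?_⟩
      · intro u
        rw [h1, one_mul]
      · intro u
        rw [h2, one_mul]
    · obtain ⟨hj, -⟩ := C.pick hi
      have hp := G.simple_lt hi
      have hm : (-1 : K) ≠ 0 := by simp
      refine ⟨y * hX D X (D.simple (C.nbr i)) (-1), ?_, ?_⟩
      · intro u
        have e1 : y * hX D X (D.simple (C.nbr i)) (-1) * X (D.simple i) u * (y * hX D X (D.simple (C.nbr i)) (-1))⁻¹ =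
            y * (hX D X (D.simple (C.nbr i)) (-1) * X (D.simple i) u * (hX D X (D.simple (C.nbr i)) (-1))⁻¹) * y⁻¹ := by group
        rw [e1, hX_conj h C hj hm hp, chi_nbr h C F hi hj, h1]
        congr 1
        simp
      · intro u
        have e1 : y * hX D X (D.simple (C.nbr i)) (-1) * X (D.neg (D.simple i)) u * (y * hX D X (D.simple (C.nbr i)) (-1))⁻¹ =
            y * (hX D X (D.simple (C.nbr i)) (-1) * X (D.neg (D.simple i)) u * (hX D X (D.simple (C.nbr i)) (-1))⁻¹) * y⁻¹ := by group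
        rw [e1, hX_conj h C hj hm (G.neg_lt hp), chi_nbr_neg h C F hi hj, h2]
        congr 1
        simp
  obtain ⟨y', h3, h4⟩ := key
  rw [← conj_hX h3 h4, ← conj_hX h3 h4, ← conj_hX h3 h4, ← R3_simple h C F hz hi ha hb]
  group

omit h F in
theorem X_lift_stX' {r : ℕ} (hr : r < D.nroots) (t : K) :
    FreeGroup.lift (fun p : Fin D.nroots × K => X p.1 p.2) (D.stX r t) = X r t := by
  unfold ChevalleyDatum.stX
  rw [dif_pos hr, FreeGroup.lift_apply_of]

omit h F in
theorem X_lift_stWord' (w : List (ℕ × K)) (hw : ∀ a ∈ w, a.1 < D.nroots) :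
    FreeGroup.lift (fun p : Fin D.nroots × K => X p.1 p.2) (D.stWord w) = wX X w := by
  induction w with
  | nil => simp [ChevalleyDatum.stWord, wX]
  | cons a w ih =>
    have := ih (fun b hb => hw b (List.mem_cons_of_mem _ hb))
    simp only [ChevalleyDatum.stWord] at this ⊢
    simp only [List.map_cons, List.prod_cons, map_mul, wX_cons]
    rw [this, X_lift_stX' (hw a List.mem_cons_self)]

include hz in
theorem X_rels' [Finite K] : ∀ g ∈ D.steinbergRels K, FreeGroup.lift (fun p : Fin D.nroots × K => X p.1 p.2) g = 1 := by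
  rintro g ((⟨r, t, u, hr, rfl⟩ | ⟨r, s, t, u, hr, hs, h1, h2, rfl⟩) | ⟨r, t, u, hr, ht, hu, rfl⟩)
  · rw [map_mul, map_mul, map_inv, X_lift_stX' hr, X_lift_stX' hr, X_lift_stX' hr, mul_inv_eq_one, h.R1 hr]
  · have hw : ∀ a ∈ D.commWord K r s t u, a.1 < D.nroots := by
      intro a ha
      simp only [ChevalleyDatum.commWord, List.mem_map] at ha
      obtain ⟨c, hc, rfl⟩ := ha
      exact G.commTerms_lt hr hs c hc
    simp only [map_mul, map_inv, X_lift_stX' hr, X_lift_stX' hs, X_lift_stWord' _ hw, mul_inv_eq_one]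
    have h5 := h.R2 hr hs h1 h2 t u
    calc (X s u)⁻¹ * (X r t)⁻¹ * X s u * X r t
        = (X s u)⁻¹ * (X r t)⁻¹ * (X s u * X r t) := by group
      _ = _ := by rw [h5]; group
  · have hn := G.neg_lt hr
    have key : ∀ t : K, FreeGroup.lift (fun p : Fin D.nroots × K => X p.1 p.2) (D.stH r t) = hX D X r t := by
      intro t
      have hw : ∀ a ∈ D.hWord r t, a.1 < D.nroots := by
        intro a ha
        simp only [ChevalleyDatum.hWord, ChevalleyDatum.nWord, List.mem_append, List.mem_cons, List.not_mem_nil,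
          or_false] at ha
        rcases ha with (rfl | rfl | rfl) | (rfl | rfl | rfl) <;> first | exact hr | exact hn
      rw [ChevalleyDatum.stH, X_lift_stWord' _ hw]
      rfl
    rw [map_mul, map_mul, map_inv, key, key, key, mul_inv_eq_one, R3_all h C F hz hr ht hu]

include hz in
/-- The map from the group of Steinberg's presentation to a central extension. -/
theorem exists_phi [Finite K] : ∃ φ : D.SteinbergGroup K →* Γ, (∀ r, r < D.nroots → ∀ t, φ (D.stGen K r t) = X r t) ∧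
    τ.comp φ = G.thetaG := by
  refine ⟨PresentedGroup.toGroup (X_rels' h C F hz), ?_, ?_⟩
  · intro r hr t
    show FreeGroup.lift _ (D.stX r t) = _
    exact X_lift_stX' hr t
  · apply PresentedGroup.ext
    intro x
    rw [of_eq_stGen]
    simp only [MonoidHom.comp_apply]
    have : (PresentedGroup.toGroup (X_rels' h C F hz)) (D.stGen K x.1 x.2) = X x.1 x.2 := by
      show FreeGroup.lift _ (D.stX x.1 x.2) = _
      exact X_lift_stX' x.1.isLt x.2
    rw [this, h.θx x.1.isLt, G.thetaG_gen]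

end Main

end Cfsg.Agent.Lib.CT
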