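import Cfsg.Agent.Lib.CT.Sch4
import Cfsg.Prelude.Def_KGroupFacts

/-!
Stem extensions of Chevalley groups of simply laced types of large rank are quotients of the group of
Steinberg's presentation.
-/

set_option autoImplicit false
set_option linter.unusedSimpArgs false
set_option linter.unusedVariables false
set_option linter.unusedSectionVars false

namespace Cfsg.Agent.Lib.CT

open Cfsg Cfsg.Lie Cfsg.Agent.Lib.Chev
open Good2 (NN)

variable {D : ChevalleyDatum} {K : Type*} [Field K] {Γ : Type*} [Group Γ]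

theorem xgt_mem (G : Good5 D) {r : ℕ} (hr : r < D.nroots) (t : K) : G.xgt r t ∈ D.group K := by
  rw [← G.theta_range]
  exact ⟨D.stGen K r t, G.thetaG_gen r t⟩

/-- A stem extension is the image of the group of Steinberg's presentation. -/
theorem stem_phi [Finite K] (G : Good5 D) (S : SchData G) (C : CTData G) (F : SchF G C) (σ : Γ →* ↥(D.group K))
    (hσ : IsStemExtension σ) :
    ∃ φ : D.SteinbergGroup K →* Γ, (∀ y, ((σ (φ y) : ↥(D.group K)) : GL D.Idx K) = G.thetaG y) ∧ σ.ker ≤ φ.range := by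
  let τ : Γ →* GL D.Idx K := (D.group K).subtype.comp σ
  have hτ : ∀ g, τ g = (σ g : GL D.Idx K) := fun g => rfl
  have hl : ∀ r, r < D.nroots → ∀ t : K, ∃ a, τ a = G.xgt r t := by
    intro r hr t
    obtain ⟨a, ha⟩ := hσ.1 ⟨_, xgt_mem G hr t⟩
    exact ⟨a, by rw [hτ, ha]⟩
  have hker : ∀ z, τ z = 1 → z ∈ σ.ker := by
    intro z hz
    rw [MonoidHom.mem_ker]
    exact Subtype.ext hz
  have hz : ∀ z, τ z = 1 → ∀ g, g * z = z * g := by
    intro z hzz g
    exact Subgroup.mem_center_iff.mp (hσ.2.1 (hker z hzz)) g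
  obtain ⟨X, hX⟩ := exists_sys S hl hz
  obtain ⟨φ, -, hφ⟩ := exists_phi hX C F hz
  have hφ' : ∀ y, τ (φ y) = G.thetaG y := fun y => DFunLike.congr_fun hφ y
  refine ⟨φ, hφ', ?_⟩
  -- every element is in the image up to a central element
  have hdec : ∀ g : Γ, ∃ (z : Γ) (y : D.SteinbergGroup K), (∀ w, z * w = w * z) ∧ g = z * φ y := by
    intro g
    have hm : τ g ∈ G.thetaG.range := by
      rw [G.theta_range]
      exact (σ g).2
    obtain ⟨y, hy⟩ := hm
    refine ⟨g * (φ y)⁻¹, y, ?_, by group⟩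
    intro w
    have : τ (g * (φ y)⁻¹) = 1 := by
      rw [map_mul, map_inv, hφ', ← hy]
      simp
    exact (hz _ this w).symm
  have hcomm : commutator Γ ≤ φ.range := by
    rw [commutator_def, Subgroup.commutator_le]
    intro a _ b _
    obtain ⟨z, y, hz1, rfl⟩ := hdec a
    obtain ⟨z', y', hz2, rfl⟩ := hdec b
    have e1 : cc (z * φ y) (z' * φ y') ∈ φ.range := by
      rw [cc_central_left hz1, cc_central_right hz2, ← map_cc]
      exact ⟨_, rfl⟩
    exact e1
  exact hσ.2.2.trans hcomm

/-- The case of a group of Steinberg's presentation with trivial kernel. -/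
theorem stem_inj [Finite K] (G : Good5 D) (S : SchData G) (C : CTData G) (F : SchF G C) (hker : ∀ y : D.SteinbergGroup K, G.thetaG y = 1 → y = 1)
    (σ : Γ →* ↥(D.group K)) (hσ : IsStemExtension σ) : σ.ker = ⊥ := by
  obtain ⟨φ, h1, h2⟩ := stem_phi G S C F σ hσ
  rw [eq_bot_iff]
  intro z hz
  obtain ⟨y, rfl⟩ := h2 hz
  have e : G.thetaG y = 1 := by
    rw [← h1, MonoidHom.mem_ker.mp hz]
    rfl
  rw [hker y e, map_one]
  exact Subgroup.one_mem _

/-- The trivial Schur multiplier. -/
theorem schur_trivial [Finite K] (G : Good5 D) (S : SchData G) (C : CTData G) (F : SchF G C)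
    (hker : ∀ y : D.SteinbergGroup K, G.thetaG y = 1 → y = 1) :
    HasCyclicSchurMultiplier ↥(D.group K) 1 := by
  constructor
  · refine ⟨↥(D.group K), inferInstance, inferInstance, MonoidHom.id _, ⟨Function.surjective_id, ?_, ?_⟩, ?_⟩
    · rw [MonoidHom.ker_id]
      exact bot_le
    · rw [MonoidHom.ker_id]
      exact bot_le
    · rw [MonoidHom.ker_id]
      refine ⟨{ toFun := fun _ => 1, invFun := fun _ => 1, left_inv := ?_, right_inv := ?_, map_mul' := ?_ }⟩
      · intro x
        exact Subsingleton.elim _ _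
      · intro x
        exact Subsingleton.elim _ _
      · intro x y
        exact Subsingleton.elim _ _
  · intro Γ' _ _ σ hσ
    refine ⟨1, ?_⟩
    intro x
    have h := stem_inj G S C F hker σ hσ
    have hx : (x : Γ') = 1 := Subgroup.mem_bot.mp (h.le x.2)
    exact ⟨1, Subtype.ext hx.symm⟩

end Cfsg.Agent.Lib.CT
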