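import Cfsg.Agent.Lib.CT.Sch5

/-!
Representations of the group of Steinberg's presentation by matrices `1 + t e_r`.
-/

set_option autoImplicit false
set_option linter.unusedSimpArgs false
set_option linter.unusedVariables false
set_option linter.unusedSectionVars false

namespace Cfsg.Agent.Lib.CT

open Cfsg Cfsg.Lie Cfsg.Agent.Lib.Chev
open Good2 (NN)

section RingId

variable {K : Type*} [Field K] {R : Type*} [Ring R] [Algebra K R]

theorem xe_mul {e : R} (he : e * e = 0) (t u : K) : (1 + t • e) * (1 + u • e) = 1 + (t + u) • e := by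
  simp only [add_mul, mul_add, one_mul, mul_one, smul_mul_assoc, mul_smul_comm, he, smul_zero, add_zero, add_smul]
  module

theorem comm_id {A B : R} (hA : A * A = 0) (hB : B * B = 0) (h1 : A * B * A = 0) (h2 : B * A * B = 0) (t u : K) :
    (1 + u • B) * (1 + t • A) = (1 + t • A) * (1 + u • B) * (1 + (-(t * u)) • (A * B - B * A)) := by
  have h3 : A * (A * B) = 0 := by rw [← mul_assoc, hA, zero_mul]
  have h4 : A * (B * A) = 0 := by rw [← mul_assoc, h1]
  have h5 : B * (A * B) = 0 := by rw [← mul_assoc, h2]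
  have h6 : B * (B * A) = 0 := by rw [← mul_assoc, hB, zero_mul]
  have h7 : A * (A * B - B * A) = 0 := by rw [mul_sub, h3, h4, sub_zero]
  have h8 : B * (A * B - B * A) = 0 := by rw [mul_sub, h5, h6, sub_zero]
  set Q := A * B - B * A with hQ
  have e1 : (1 + t • A) * (1 + u • B) = 1 + t • A + u • B + (t * u) • (A * B) := by
    simp only [add_mul, mul_add, one_mul, mul_one, smul_mul_assoc, mul_smul_comm, smul_add, smul_smul]
    module
  have e2 : (1 + u • B) * (1 + t • A) = 1 + t • A + u • B + (t * u) • (B * A) := by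
    simp only [add_mul, mul_add, one_mul, mul_one, smul_mul_assoc, mul_smul_comm, smul_add, smul_smul]
    module
  rw [e1, e2]
  have e3 : (1 + t • A + u • B + (t * u) • (A * B)) * (1 + (-(t * u)) • Q) =
      1 + t • A + u • B + (t * u) • (A * B) + (-(t * u)) • Q := by
    simp only [add_mul, mul_add, one_mul, mul_one, smul_mul_assoc, mul_smul_comm, smul_add, smul_smul, mul_assoc, h7, h8]
    simp only [smul_zero, add_zero, mul_zero]
  rw [e3, hQ]
  module

/-- `w(t)`. -/
def wE (e f : R) (t : K) : R := (1 + t • e) * (1 + (-t⁻¹) • f) * (1 + t • e)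

/-- `h(t)`. -/
def hE (e f : R) (t : K) : R := 1 - e * f - f * e + t • (e * f) + t⁻¹ • (f * e)

section

variable {e f : R} (h1 : e * e = 0) (h2 : f * f = 0) (h3 : e * f * e = e) (h4 : f * e * f = f)
include h1 h2 h3 h4

theorem wE_val {t : K} (ht : t ≠ 0) : wE e f t = 1 + t • e + (-t⁻¹) • f - e * f - f * e := by
  unfold wE
  have h1' : ∀ x : R, e * (e * x) = 0 := fun x => by rw [← mul_assoc, h1, zero_mul]
  have h3' : e * (f * e) = e := by rw [← mul_assoc, h3]
  have e1 : t * t⁻¹ = 1 := by field_simp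
  simp only [add_mul, mul_add, one_mul, mul_one, smul_mul_assoc, mul_smul_comm, smul_add, smul_smul, mul_assoc, h1, h1', h3',
    smul_zero, add_zero, zero_add, mul_zero]
  have e3 : (t * (-t⁻¹ * t)) = -t := by
    calc t * (-t⁻¹ * t) = -(t * t⁻¹) * t := by ring
      _ = -t := by rw [e1]; ring
  have e4 : (t * -t⁻¹) = -1 := by
    calc t * -t⁻¹ = -(t * t⁻¹) := by ring
      _ = -1 := by rw [e1]
  have e5 : (-t⁻¹ * t) = -1 := by
    calc -t⁻¹ * t = -(t * t⁻¹) := by ring
      _ = -1 := by rw [e1]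
  rw [e3, e4, e5]
  module

theorem hE_eq {t : K} (ht : t ≠ 0) : wE e f t * wE e f (-1 : K) = hE e f t := by
  rw [wE_val h1 h2 h3 h4 ht, wE_val h1 h2 h3 h4 (by simp : (-1 : K) ≠ 0)]
  unfold hE
  have h1' : ∀ x : R, e * (e * x) = 0 := fun x => by rw [← mul_assoc, h1, zero_mul]
  have h2' : ∀ x : R, f * (f * x) = 0 := fun x => by rw [← mul_assoc, h2, zero_mul]
  have h3' : e * (f * e) = e := by rw [← mul_assoc, h3]
  have h4' : f * (e * f) = f := by rw [← mul_assoc, h4]
  have h5' : ∀ x : R, e * (f * (e * x)) = e * x := fun x => by rw [← mul_assoc, ← mul_assoc, h3]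
  have h6' : ∀ x : R, f * (e * (f * x)) = f * x := fun x => by rw [← mul_assoc, ← mul_assoc, h4]
  simp only [inv_neg, inv_one, neg_neg]
  simp only [add_mul, mul_add, sub_mul, mul_sub, one_mul, mul_one, smul_mul_assoc, mul_smul_comm, smul_add, smul_sub, smul_smul, mul_assoc,
    h1, h2, h1', h2', h3', h4', h5', h6', smul_zero, add_zero, zero_add, sub_zero, zero_sub, mul_zero]
  have e1 : t * t⁻¹ = 1 := by field_simp
  simp only [mul_neg, neg_mul, one_mul, mul_one, e1, neg_smul, one_smul, smul_neg, neg_neg]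
  module

theorem hE_mul {a b : K} (ha : a ≠ 0) (hb : b ≠ 0) : hE e f a * hE e f b = hE e f (a * b) := by
  unfold hE
  have h1' : ∀ x : R, e * (e * x) = 0 := fun x => by rw [← mul_assoc, h1, zero_mul]
  have h2' : ∀ x : R, f * (f * x) = 0 := fun x => by rw [← mul_assoc, h2, zero_mul]
  have h3' : e * (f * e) = e := by rw [← mul_assoc, h3]
  have h4' : f * (e * f) = f := by rw [← mul_assoc, h4]
  have h5' : ∀ x : R, e * (f * (e * x)) = e * x := fun x => by rw [← mul_assoc, ← mul_assoc, h3]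
  have h6' : ∀ x : R, f * (e * (f * x)) = f * x := fun x => by rw [← mul_assoc, ← mul_assoc, h4]
  simp only [add_mul, mul_add, sub_mul, mul_sub, one_mul, mul_one, smul_mul_assoc, mul_smul_comm, smul_add, smul_sub, smul_smul, mul_assoc,
    h1, h2, h1', h2', h3', h4', h5', h6', smul_zero, add_zero, zero_add, sub_zero, zero_sub, sub_self, mul_inv, mul_zero]
  module

end

end RingId

section Hom

variable {D : ChevalleyDatum} {K : Type*} [Field K] {Γ : Type*} [Group Γ]

/-- A homomorphism from the group of Steinberg's presentation. -/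
theorem rep_hom (G : Good5 D) (X : ℕ → K → Γ) (hR1 : ∀ {r}, r < D.nroots → ∀ t u : K, X r t * X r u = X r (t + u))
    (hR2 : ∀ {r s}, r < D.nroots → s < D.nroots → s ≠ r → s ≠ D.neg r → ∀ t u : K,
      X s u * X r t = X r t * X s u * wX X (D.commWord K r s t u))
    (hR3 : ∀ {r}, r < D.nroots → ∀ {a b : K}, a ≠ 0 → b ≠ 0 → hX D X r a * hX D X r b = hX D X r (a * b)) :
    ∃ φ : D.SteinbergGroup K →* Γ, ∀ r, r < D.nroots → ∀ t, φ (D.stGen K r t) = X r t := by
  have hrels : ∀ g ∈ D.steinbergRels K, FreeGroup.lift (fun p : Fin D.nroots × K => X p.1 p.2) g = 1 := by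
    rintro g ((⟨r, t, u, hr, rfl⟩ | ⟨r, s, t, u, hr, hs, h1, h2, rfl⟩) | ⟨r, t, u, hr, ht, hu, rfl⟩)
    · rw [map_mul, map_mul, map_inv, X_lift_stX' hr, X_lift_stX' hr, X_lift_stX' hr, mul_inv_eq_one, hR1 hr]
    · have hw : ∀ a ∈ D.commWord K r s t u, a.1 < D.nroots := by
        intro a ha
        simp only [ChevalleyDatum.commWord, List.mem_map] at ha
        obtain ⟨c, hc, rfl⟩ := ha
        exact G.commTerms_lt hr hs c hc
      simp only [map_mul, map_inv, X_lift_stX' hr, X_lift_stX' hs, X_lift_stWord' _ hw, mul_inv_eq_one]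
      have h5 := hR2 hr hs h1 h2 t u
      calc (X s u)⁻¹ * (X r t)⁻¹ * X s u * X r t
          = (X s u)⁻¹ * (X r t)⁻¹ * (X s u * X r t) := by group
        _ = _ := by rw [h5]; group
    · have hn := G.neg_lt hr
      have key : ∀ t : K, FreeGroup.lift (fun p : Fin D.nroots × K => X p.1 p.2) (D.stH r t) = hX D X r t := by
        intro t
        have hw : ∀ a ∈ D.hWord r t, a.1 < D.nroots := by
          intro a ha
          simp only [ChevalleyDatum.hWord, ChevalleyDatum.nWord, List.mem_append, List.mem_cons, List.not_mem_nil,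
            or_false] at ha
          rcases ha with (rfl | rfl | rfl) | (rfl | rfl | rfl) <;> first | exact hr | exact hn
        rw [ChevalleyDatum.stH, X_lift_stWord' _ hw]
        rfl
      rw [map_mul, map_mul, map_inv, key, key, key, mul_inv_eq_one, hR3 hr ht hu]
  refine ⟨PresentedGroup.toGroup hrels, ?_⟩
  intro r hr t
  show FreeGroup.lift _ (D.stX r t) = _
  exact X_lift_stX' hr t

theorem phi_wB {φ : D.SteinbergGroup K →* Γ} {X : ℕ → K → Γ} (h : ∀ r, r < D.nroots → ∀ t, φ (D.stGen K r t) = X r t)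
    (w : List (ℕ × K)) (hw : ∀ a ∈ w, a.1 < D.nroots) : φ (wB D K w) = wX X w := by
  induction w with
  | nil => simp [wB, wX]
  | cons a w ih =>
    rw [wB_cons, wX_cons, map_mul, h _ (hw a List.mem_cons_self), ih fun b hb => hw b (List.mem_cons_of_mem _ hb)]

theorem phi_hB (G : Good5 D) {φ : D.SteinbergGroup K →* Γ} {X : ℕ → K → Γ} (h : ∀ r, r < D.nroots → ∀ t, φ (D.stGen K r t) = X r t)
    {r : ℕ} (hr : r < D.nroots) (t : K) : φ (hB D K r t) = hX D X r t := by
  refine phi_wB h _ ?_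
  have hn := G.neg_lt hr
  intro a ha
  simp only [ChevalleyDatum.hWord, ChevalleyDatum.nWord, List.mem_append, List.mem_cons, List.not_mem_nil,
    or_false] at ha
  rcases ha with (rfl | rfl | rfl) | (rfl | rfl | rfl) <;> first | exact hr | exact hn

end Hom

section Tables

variable {K : Type*} [Field K]

/-- The matrix of a signed map. -/
def mF (K : Type*) [Field K] (N : ℕ) (f : ℕ → ℤ × ℕ) : Matrix (Fin N) (Fin N) K :=
  Matrix.of fun j i => if (f i.val).2 = j.val then (((f i.val).1 : ℤ) : K) else 0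

/-- The composition of signed maps. -/
def cmpF (f g : ℕ → ℤ × ℕ) : ℕ → ℤ × ℕ := fun i => ((f (g i).2).1 * (g i).1, (f (g i).2).2)

theorem mF_mul {N : ℕ} {f g : ℕ → ℤ × ℕ} (hg : ∀ i, i < N → (g i).1 = 0 ∨ (g i).2 < N) :
    mF K N f * mF K N g = mF K N (cmpF f g) := by
  ext j i
  simp only [Matrix.mul_apply, mF, Matrix.of_apply, cmpF]
  rcases hg i i.isLt with h | h
  · simp [h]
  · rw [Finset.sum_eq_single (⟨(g i).2, h⟩ : Fin N)]
    · by_cases hh : (f (g i).2).2 = j.val
      · simp [hh]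
      · simp [hh]
    · intro b _ hb
      have : ¬ (g i).2 = b.val := fun e => hb (Fin.ext e.symm)
      simp [this]
    · simp

/-- Equality of columns, as a boolean. -/
def sameS (a b : ℤ × ℕ) : Bool := decide (a.1 = b.1) && (decide (a.1 = 0) || Nat.beq a.2 b.2)

/-- An entry of a column. -/
def entS (K : Type*) [Field K] (a : ℤ × ℕ) (j : ℕ) : K := if a.2 = j then ((a.1 : ℤ) : K) else 0

theorem ent_same {a b : ℤ × ℕ} (h : sameS a b = true) (j : ℕ) : entS K a j = entS K b j := by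
  simp only [sameS, Bool.and_eq_true, Bool.or_eq_true, decide_eq_true_eq] at h
  obtain ⟨h1, h2⟩ := h
  unfold entS
  rcases h2 with h2 | h2
  · rw [← h1, h2]
    simp
  · rw [Nat.eq_of_beq_eq_true h2, h1]

theorem mF_eq {N : ℕ} {f g : ℕ → ℤ × ℕ} (h : ∀ i, i < N → sameS (f i) (g i) = true) : mF K N f = mF K N g := by
  ext j i
  exact ent_same (h i i.isLt) j.val

theorem mF_zero {N : ℕ} {f : ℕ → ℤ × ℕ} (h : ∀ i, i < N → (f i).1 = 0) : mF K N f = 0 := by
  ext j i
  simp [mF, h i i.isLt]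

/-- The difference of two columns is a column, as a boolean. -/
def colOK (a b c : ℤ × ℕ) : Bool :=
  (decide (a.1 = 0) && sameS (-b.1, b.2) c) || (decide (b.1 = 0) && sameS a c) || (sameS a b && decide (c.1 = 0))

theorem ent_zero {a : ℤ × ℕ} (h : a.1 = 0) (j : ℕ) : entS K a j = 0 := by
  simp [entS, h]

theorem col_ent {a b c : ℤ × ℕ} (h : colOK a b c = true) (j : ℕ) : entS K a j - entS K b j = entS K c j := by
  simp only [colOK, Bool.or_eq_true, Bool.and_eq_true, decide_eq_true_eq] at h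
  rcases h with (⟨h1, h2⟩ | ⟨h1, h2⟩) | ⟨h1, h2⟩
  · rw [ent_zero h1, ← ent_same h2]
    simp only [entS]
    split_ifs <;> simp
  · rw [ent_zero h1, sub_zero, ent_same h2]
  · rw [ent_same h1, sub_self, ent_zero h2]

/-- A column of a product of three signed maps vanishes, as a boolean. -/
def zero3 (A B : ℕ → ℤ × ℕ) (i : ℕ) : Bool :=
  decide ((A i).1 = 0) || decide ((B (A i).2).1 = 0) || decide ((A (B (A i).2).2).1 = 0)

/-- The column of the term of a commutator. -/
def termC (ct : ℕ → ℕ → List (ℕ × ℤ × ℕ × ℕ)) (tb : ℕ → ℕ → ℤ × ℕ) (r s i : ℕ) : ℤ × ℕ :=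
  match ct r s with
  | [c] => (c.2.1 * (tb c.1 i).1, (tb c.1 i).2)
  | _ => (0, 0)

/-- Squares vanish and the columns are in range. -/
def rpR1 (T : Tbl) (N : ℕ) (tb : ℕ → ℕ → ℤ × ℕ) : Bool :=
  allLt T.n fun r => allLt N fun i =>
    decide ((tb r i).1 = 0) || (decide ((tb r i).2 < N) && decide ((tb r (tb r i).2).1 = 0))

/-- The relation `e f e = e`. -/
def rpR2 (T : Tbl) (N : ℕ) (tb : ℕ → ℕ → ℤ × ℕ) : Bool :=
  allLt T.n fun r => allLt N fun i => sameS (cmpF (tb r) (cmpF (tb (T.neg r)) (tb r)) i) (tb r i)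

/-- The commutator relations. -/
def rpR3 (T : Tbl) (ct : ℕ → ℕ → List (ℕ × ℤ × ℕ × ℕ)) (N : ℕ) (tb : ℕ → ℕ → ℤ × ℕ) : Bool :=
  allLt T.n fun r => allLt T.n fun s =>
    Nat.beq s r || Nat.beq s (T.neg r) || allLt N fun i =>
      zero3 (tb r) (tb s) i && zero3 (tb s) (tb r) i &&
        colOK (cmpF (tb r) (tb s) i) (cmpF (tb s) (tb r) i) (termC ct tb r s i)

/-- The highest weight vector. -/
def rpR4 (T : Tbl) (simple : ℕ → ℕ) (N : ℕ) (tb : ℕ → ℕ → ℤ × ℕ) (i0 m : ℕ) : Bool :=
  decide (0 < N) && decide (m < N) && allLt T.l fun i =>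
    decide ((tb (simple i) 0).1 = 0) &&
      (if i = i0 then decide ((tb (T.neg (simple i)) 0) = (1, m)) && decide (tb (simple i) m = (1, 0))
       else decide ((tb (T.neg (simple i)) 0).1 = 0))

end Tables

section Rep

variable {D : ChevalleyDatum} {K : Type*} [Field K]

/-- A representation of the group of Steinberg's presentation by matrices `1 + t e_r`, with a highest weight. -/
structure RepD (G : Good5 D) (S : SchData G) (N : ℕ) where
  tb : ℕ → ℕ → ℤ × ℕ
  r1 : rpR1 (tblOf D) N tb = true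
  r2 : rpR2 (tblOf D) N tb = true
  r3 : rpR3 (tblOf D) S.ct N tb = true
  i0 : ℕ
  m : ℕ
  r4 : rpR4 (tblOf D) D.simple N tb i0 m = true

namespace RepD

variable {G : Good5 D} {S : SchData G} {N : ℕ} (P : RepD G S N)

/-- The matrix `e_r`. -/
def eM (K : Type*) [Field K] (r : ℕ) : Matrix (Fin N) (Fin N) K := mF K N (P.tb r)

include P

theorem range {r : ℕ} (hr : r < D.nroots) (i : ℕ) (hi : i < N) : (P.tb r i).1 = 0 ∨ (P.tb r i).2 < N := by
  have h := (allLt_iff _ _).mp ((allLt_iff _ _).mp P.r1 r hr) i hi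
  simp only [Bool.or_eq_true, Bool.and_eq_true, decide_eq_true_eq] at h
  rcases h with h | h
  · exact Or.inl h
  · exact Or.inr h.1

theorem range2 {r s : ℕ} (hr : r < D.nroots) (hs : s < D.nroots) (i : ℕ) (hi : i < N) :
    (cmpF (P.tb r) (P.tb s) i).1 = 0 ∨ (cmpF (P.tb r) (P.tb s) i).2 < N := by
  simp only [cmpF]
  rcases P.range hs i hi with h | h
  · left
    rw [h, mul_zero]
  · rcases P.range hr _ h with h2 | h2
    · left
      rw [h2, zero_mul]
    · exact Or.inr h2

theorem eM_sq {r : ℕ} (hr : r < D.nroots) : P.eM K r * P.eM K r = 0 := by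
  unfold eM
  rw [mF_mul (P.range hr), mF_zero]
  intro i hi
  have h := (allLt_iff _ _).mp ((allLt_iff _ _).mp P.r1 r hr) i hi
  simp only [Bool.or_eq_true, Bool.and_eq_true, decide_eq_true_eq] at h
  simp only [cmpF]
  rcases h with h | h
  · rw [h, mul_zero]
  · rw [h.2, zero_mul]

theorem eM_efe (G' : Good5 D) {r : ℕ} (hr : r < D.nroots) : P.eM K r * P.eM K (D.neg r) * P.eM K r = P.eM K r := by
  have hn := G'.neg_lt hr
  unfold eM
  rw [mul_assoc, mF_mul (P.range hr), mF_mul (P.range2 hn hr)]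
  exact mF_eq fun i hi => (allLt_iff _ _).mp ((allLt_iff _ _).mp P.r2 r hr) i hi

theorem r3_spec {r s : ℕ} (hr : r < D.nroots) (hs : s < D.nroots) (h1 : s ≠ r) (h2 : s ≠ D.neg r) (i : ℕ) (hi : i < N) :
    zero3 (P.tb r) (P.tb s) i = true ∧ zero3 (P.tb s) (P.tb r) i = true ∧
      colOK (cmpF (P.tb r) (P.tb s) i) (cmpF (P.tb s) (P.tb r) i) (termC S.ct P.tb r s i) = true := by
  have h := (allLt_iff _ _).mp ((allLt_iff _ _).mp P.r3 r hr) s hs
  simp only [Bool.or_eq_true] at h
  rcases h with (h | h) | h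
  · exact absurd (Nat.eq_of_beq_eq_true h) h1
  · exact absurd (Nat.eq_of_beq_eq_true h) h2
  · have := (allLt_iff _ _).mp h i hi
    simp only [Bool.and_eq_true] at this
    exact ⟨this.1.1, this.1.2, this.2⟩

omit P in
theorem zero3_mF {N : ℕ} {A B : ℕ → ℤ × ℕ} (hA : ∀ i, i < N → (A i).1 = 0 ∨ (A i).2 < N) (hB : ∀ i, i < N → (B i).1 = 0 ∨ (B i).2 < N)
    (h : ∀ i, i < N → zero3 A B i = true) : mF K N A * mF K N B * mF K N A = 0 := by
  rw [mul_assoc, mF_mul hA]
  have hBA : ∀ i, i < N → (cmpF B A i).1 = 0 ∨ (cmpF B A i).2 < N := by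
    intro i hi
    simp only [cmpF]
    rcases hA i hi with h1 | h1
    · left
      rw [h1, mul_zero]
    · rcases hB _ h1 with h2 | h2
      · left
        rw [h2, zero_mul]
      · exact Or.inr h2
  rw [mF_mul hBA, mF_zero]
  intro i hi
  have h1 := h i hi
  simp only [zero3, Bool.or_eq_true, decide_eq_true_eq] at h1
  simp only [cmpF]
  rcases h1 with (h1 | h1) | h1
  · rw [h1]
    simp
  · rw [h1]
    simp
  · rw [h1]
    simp

theorem eM_aba {r s : ℕ} (hr : r < D.nroots) (hs : s < D.nroots) (h1 : s ≠ r) (h2 : s ≠ D.neg r) :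
    P.eM K r * P.eM K s * P.eM K r = 0 :=
  zero3_mF (P.range hr) (P.range hs) fun i hi => (P.r3_spec hr hs h1 h2 i hi).1

theorem eM_bab {r s : ℕ} (hr : r < D.nroots) (hs : s < D.nroots) (h1 : s ≠ r) (h2 : s ≠ D.neg r) :
    P.eM K s * P.eM K r * P.eM K s = 0 :=
  zero3_mF (P.range hs) (P.range hr) fun i hi => (P.r3_spec hr hs h1 h2 i hi).2.1

theorem eM_comm {r s : ℕ} (hr : r < D.nroots) (hs : s < D.nroots) (h1 : s ≠ r) (h2 : s ≠ D.neg r) :
    P.eM K r * P.eM K s - P.eM K s * P.eM K r = mF K N (termC S.ct P.tb r s) := by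
  unfold eM
  rw [mF_mul (P.range hs), mF_mul (P.range hr)]
  ext j i
  simp only [Matrix.sub_apply]
  exact col_ent (P.r3_spec hr hs h1 h2 i i.isLt).2.2 j.val

theorem term_nil {r s : ℕ} (h : S.ct r s = []) : mF K N (termC S.ct P.tb r s) = 0 := by
  apply mF_zero
  intro i _
  simp [termC, h]

theorem term_single {r s q : ℕ} {C : ℤ} (h : S.ct r s = [(q, C, 1, 1)]) :
    mF K N (termC S.ct P.tb r s) = (C : K) • P.eM K q := by
  ext j i
  simp only [mF, termC, h, Matrix.of_apply, Matrix.smul_apply, eM, smul_eq_mul]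
  split_ifs
  · push_cast
    ring
  · simp

end RepD

end Rep

end Cfsg.Agent.Lib.CT
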