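import Cfsg.Agent.Lib.CT.Sch6
import Cfsg.Agent.Lib.Chev.Stein7

/-!
The homomorphism from the group of Steinberg's presentation given by matrices `1 + t e_r`, and its action on
a highest weight vector.
-/

set_option autoImplicit false
set_option linter.unusedSimpArgs false
set_option linter.unusedVariables false
set_option linter.unusedSectionVars false

namespace Cfsg.Agent.Lib.CT

open Cfsg Cfsg.Lie Cfsg.Agent.Lib.Chev
open Good2 (NN)

variable {D : ChevalleyDatum} {K : Type*} [Field K]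

namespace RepD

variable {G : Good5 D} {S : SchData G} {N : ℕ} (P : RepD G S N)

/-- The root elements of the representation. -/
noncomputable def xU (K : Type*) [Field K] (r : ℕ) (t : K) : (Matrix (Fin N) (Fin N) K)ˣ :=
  if hr : r < D.nroots then
    ⟨1 + t • P.eM K r, 1 + (-t) • P.eM K r,
      by rw [xe_mul (P.eM_sq hr), add_neg_cancel, zero_smul, add_zero],
      by rw [xe_mul (P.eM_sq hr), neg_add_cancel, zero_smul, add_zero]⟩
  else 1

theorem xU_val {r : ℕ} (hr : r < D.nroots) (t : K) : ((P.xU K r t : (Matrix (Fin N) (Fin N) K)ˣ) : Matrix (Fin N) (Fin N) K) = 1 + t • P.eM K r := by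
  unfold xU
  rw [dif_pos hr]

theorem nX_val {r : ℕ} (hr : r < D.nroots) (hn : D.neg r < D.nroots) (t : K) :
    ((nX D (P.xU K) r t : (Matrix (Fin N) (Fin N) K)ˣ) : Matrix (Fin N) (Fin N) K) = wE (P.eM K r) (P.eM K (D.neg r)) t := by
  rw [nX_eq, Units.val_mul, Units.val_mul, P.xU_val hr, P.xU_val hn]
  rfl

theorem eM_efe' {r : ℕ} (hr : r < D.nroots) : P.eM K (D.neg r) * P.eM K r * P.eM K (D.neg r) = P.eM K (D.neg r) := by
  have hn := G.neg_lt hr
  have := P.eM_efe (K := K) G hn
  rwa [G.neg_neg hr] at this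

theorem hX_val {r : ℕ} (hr : r < D.nroots) {t : K} (ht : t ≠ 0) :
    ((hX D (P.xU K) r t : (Matrix (Fin N) (Fin N) K)ˣ) : Matrix (Fin N) (Fin N) K) = hE (P.eM K r) (P.eM K (D.neg r)) t := by
  have hn := G.neg_lt hr
  rw [hX_eq, Units.val_mul, P.nX_val hr hn, P.nX_val hr hn]
  exact hE_eq (P.eM_sq hr) (P.eM_sq hn) (P.eM_efe G hr) (P.eM_efe' hr) ht

/-- The homomorphism. -/
theorem exists_rep : ∃ φ : D.SteinbergGroup K →* (Matrix (Fin N) (Fin N) K)ˣ,
    ∀ r, r < D.nroots → ∀ t, φ (D.stGen K r t) = P.xU K r t := by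
  refine rep_hom G (P.xU K) ?_ ?_ ?_
  · intro r hr t u
    apply Units.ext
    rw [Units.val_mul, P.xU_val hr, P.xU_val hr, P.xU_val hr, xe_mul (P.eM_sq hr)]
  · intro r s hr hs h1 h2 t u
    have hc := P.eM_comm (K := K) hr hs h1 h2
    rcases S.mv_spec hr hs h1 h2 with h | ⟨q, a, b, t', ⟨C, h3⟩, -⟩
    · have e0 : S.ct r s = [] := by rw [ct_of S.s0 hr hs h1 h2, h]
      rw [P.term_nil e0] at hc
      have e1 : D.commWord K r s t u = [] := by
        simp [ChevalleyDatum.commWord, h]
      rw [e1, wX_nil, mul_one]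
      apply Units.ext
      rw [Units.val_mul, Units.val_mul, P.xU_val hr, P.xU_val hs]
      have := comm_id (K := K) (A := P.eM K r) (B := P.eM K s) (P.eM_sq hr) (P.eM_sq hs) (P.eM_aba hr hs h1 h2) (P.eM_bab hr hs h1 h2) t u
      rw [hc, smul_zero, add_zero, mul_one] at this
      exact this
    · have e0 : S.ct r s = [(q, C, 1, 1)] := by rw [ct_of S.s0 hr hs h1 h2, h3.2.2.2.2.2.2.1]
      rw [P.term_single e0] at hc
      have e1 : D.commWord K r s t u = [(q, (C : K) * (-t) * u)] := by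
        simp only [ChevalleyDatum.commWord, h3.2.2.2.2.2.2.1, List.map_cons, List.map_nil, pow_one]
      have e2 : wX (P.xU K) (D.commWord K r s t u) = P.xU K q ((C : K) * (-t) * u) := by
        rw [e1]
        simp [wX]
      rw [e2]
      apply Units.ext
      rw [Units.val_mul, Units.val_mul, Units.val_mul, P.xU_val hr, P.xU_val hs, P.xU_val h3.2.2.1]
      have := comm_id (K := K) (A := P.eM K r) (B := P.eM K s) (P.eM_sq hr) (P.eM_sq hs) (P.eM_aba hr hs h1 h2) (P.eM_bab hr hs h1 h2) t u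
      rw [hc] at this
      rw [this]
      congr 2
      rw [smul_smul]
      congr 1
      ring
  · intro r hr a b ha hb
    apply Units.ext
    have hn := G.neg_lt hr
    rw [Units.val_mul, P.hX_val hr ha, P.hX_val hr hb, P.hX_val hr (mul_ne_zero ha hb)]
    exact hE_mul (P.eM_sq hr) (P.eM_sq hn) (P.eM_efe G hr) (P.eM_efe' hr) ha hb

/-- The basis vectors. -/
def vS (K : Type*) [Field K] (N i : ℕ) : Fin N → K := fun j => if j.val = i then 1 else 0

omit P in
theorem mF_vS {f : ℕ → ℤ × ℕ} {i : ℕ} (hi : i < N) :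
    Matrix.mulVec (mF K N f) (vS K N i) = (((f i).1 : ℤ) : K) • vS K N (f i).2 := by
  ext j
  simp only [Matrix.mulVec, dotProduct, mF, Matrix.of_apply, vS, Pi.smul_apply, smul_eq_mul]
  rw [Finset.sum_eq_single (⟨i, hi⟩ : Fin N)]
  · by_cases h : (f i).2 = j.val
    · simp [h]
    · have h' : ¬ j.val = (f i).2 := fun e => h e.symm
      simp [h, h']
  · intro b _ hb
    have : ¬ b.val = i := fun e => hb (Fin.ext e)
    simp [this]
  · simp

include P

theorem r4_spec {i : ℕ} (hi : i < D.rank) :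
    (P.tb (D.simple i) 0).1 = 0 ∧ (i = P.i0 → P.tb (D.neg (D.simple i)) 0 = (1, P.m) ∧ P.tb (D.simple i) P.m = (1, 0)) ∧
      (i ≠ P.i0 → (P.tb (D.neg (D.simple i)) 0).1 = 0) := by
  have h := P.r4
  simp only [rpR4, Bool.and_eq_true, decide_eq_true_eq] at h
  have h1 := (allLt_iff _ _).mp h.2 i hi
  simp only [Bool.and_eq_true, decide_eq_true_eq] at h1
  refine ⟨h1.1, ?_, ?_⟩
  · intro e
    have h2 := h1.2
    rw [if_pos e] at h2
    simp only [Bool.and_eq_true, decide_eq_true_eq] at h2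
    exact h2
  · intro e
    have h2 := h1.2
    rw [if_neg e] at h2
    simp only [decide_eq_true_eq] at h2
    exact h2

theorem N_pos : 0 < N := by
  have h := P.r4
  simp only [rpR4, Bool.and_eq_true, decide_eq_true_eq] at h
  exact h.1.1

theorem m_lt : P.m < N := by
  have h := P.r4
  simp only [rpR4, Bool.and_eq_true, decide_eq_true_eq] at h
  exact h.1.2

/-- The action on a highest weight vector. -/
theorem hE_vS {i : ℕ} (hi : i < D.rank) {t : K} (ht : t ≠ 0) :
    Matrix.mulVec (hE (P.eM K (D.simple i)) (P.eM K (D.neg (D.simple i))) t) (vS K N 0) =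
      (if i = P.i0 then t else 1) • vS K N 0 := by
  obtain ⟨h1, h2, h3⟩ := P.r4_spec hi
  have hN := P.N_pos
  have hm := P.m_lt
  have e1 : Matrix.mulVec (P.eM K (D.simple i)) (vS K N 0) = 0 := by
    unfold eM
    rw [mF_vS hN, h1]
    simp
  unfold hE
  simp only [Matrix.add_mulVec, Matrix.sub_mulVec, Matrix.smul_mulVec, Matrix.one_mulVec, ← Matrix.mulVec_mulVec, e1,
    Matrix.mulVec_zero, smul_zero, add_zero, sub_zero]
  by_cases hi0 : i = P.i0
  · obtain ⟨h4, h5⟩ := h2 hi0
    have e2 : Matrix.mulVec (P.eM K (D.neg (D.simple i))) (vS K N 0) = vS K N P.m := by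
      unfold eM
      rw [mF_vS hN, h4]
      simp
    have e3 : Matrix.mulVec (P.eM K (D.simple i)) (vS K N P.m) = vS K N 0 := by
      unfold eM
      rw [mF_vS hm, h5]
      simp
    rw [e2, e3, if_pos hi0]
    simp
  · have e2 : Matrix.mulVec (P.eM K (D.neg (D.simple i))) (vS K N 0) = 0 := by
      unfold eM
      rw [mF_vS hN, h3 hi0]
      simp
    rw [e2, if_neg hi0]
    simp

/-- The action of an element of the torus on a highest weight vector. -/
theorem rep_hP {φ : D.SteinbergGroup K →* (Matrix (Fin N) (Fin N) K)ˣ}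
    (hφ : ∀ r, r < D.nroots → ∀ t, φ (D.stGen K r t) = P.xU K r t) {c : ℕ → K} {L : List ℕ} (hL : ∀ i ∈ L, i < D.rank ∧ c i ≠ 0)
    (hN : L.Nodup) :
    Matrix.mulVec ((φ (hP D K c L) : (Matrix (Fin N) (Fin N) K)ˣ) : Matrix (Fin N) (Fin N) K) (vS K N 0) =
      (if P.i0 ∈ L then c P.i0 else 1) • vS K N 0 := by
  induction L with
  | nil => simp
  | cons a L ih =>
    have ha := hL a List.mem_cons_self
    have hp := G.simple_lt ha.1
    have hL' := fun i hi => hL i (List.mem_cons_of_mem _ hi)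
    rw [hP_cons, map_mul, Units.val_mul, ← Matrix.mulVec_mulVec, ih hL' (List.nodup_cons.mp hN).2, Matrix.mulVec_smul,
      phi_hB G hφ hp, P.hX_val hp ha.2, P.hE_vS ha.1 ha.2, smul_smul]
    by_cases h1 : a = P.i0
    · subst h1
      have h2 := (List.nodup_cons.mp hN).1
      simp [h2]
    · have h3 : P.i0 ≠ a := fun e => h1 e.symm
      simp [h1, h3]

end RepD

end Cfsg.Agent.Lib.CT
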