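import Cfsg.Agent.Lib.CT.Sch7
import Cfsg.Agent.Lib.Chev.Stein6

/-!
The kernel of the map from the group of Steinberg's presentation to the Chevalley group when the Cartan matrix has
prime determinant.
-/

set_option autoImplicit false
set_option linter.unusedSimpArgs false
set_option linter.unusedVariables false
set_option linter.unusedSectionVars false

namespace Cfsg.Agent.Lib.CT

open Cfsg Cfsg.Lie Cfsg.Agent.Lib.Chev
open Good2 (NN)

variable {D : ChevalleyDatum} {K : Type*} [Field K]

/-- The data describing the kernel of the action of the Cartan matrix on the torus. -/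
structure TorD (D : ChevalleyDatum) where
  p : ℕ
  hp : p.Prime
  a : ℕ → ℕ
  i0 : ℕ
  hi0 : i0 < D.rank
  ha : a i0 = 1
  Adj : Matrix (Fin D.rank) (Fin D.rank) ℤ
  hAdj : cartanFin D * Adj = (p : ℤ) • 1
  B : Matrix (Fin D.rank) (Fin D.rank) ℤ
  hB : ∀ i j : Fin D.rank, ((cartanFin D * B) i j - ((if i = j then 1 else 0) - (if i.val = i0 then (a j.val : ℤ) else 0))) % (p : ℤ) = 0
  hC : ∀ j : Fin D.rank, (∑ i : Fin D.rank, (a i.val : ℤ) * cartanFin D i j) % (p : ℤ) = 0

theorem prod_zpow_const {Γ : Type*} [CommGroup Γ] {ι : Type*} (s : Finset ι) (ζ : Γ) (f : ι → ℤ) :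
    ∏ i ∈ s, ζ ^ f i = ζ ^ (∑ i ∈ s, f i) := by
  classical
  induction s using Finset.induction_on with
  | empty => simp
  | insert a s ha ih => rw [Finset.prod_insert ha, Finset.sum_insert ha, ih, zpow_add]

namespace TorD

variable (T : TorD D)

theorem tor_p {c : Fin D.rank → Kˣ} (h : act (cartanFin D) c = 1) (i : Fin D.rank) : c i ^ T.p = 1 := by
  have h1 : act (cartanFin D * T.Adj) c = 1 := by
    rw [← act_act, h, map_one]
  rw [T.hAdj] at h1
  have h2 := congrFun h1 i
  simp only [act_apply, Pi.one_apply] at h2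
  rw [Finset.prod_eq_single i] at h2
  · simpa using h2
  · intro b _ hb
    simp [Matrix.one_apply, hb]
  · simp

theorem tor_eq {c : Fin D.rank → Kˣ} (h : act (cartanFin D) c = 1) (j : Fin D.rank) :
    c j = c ⟨T.i0, T.hi0⟩ ^ T.a j.val := by
  have hp := tor_p T h
  have h1 : act (cartanFin D * T.B) c = 1 := by
    rw [← act_act, h, map_one]
  have h2 := congrFun h1 j
  simp only [act_apply, Pi.one_apply] at h2
  have h3 : ∀ i : Fin D.rank, c i ^ ((cartanFin D * T.B) i j) =
      c i ^ ((if i = j then (1 : ℤ) else 0)) * (c i ^ (if i.val = T.i0 then (T.a j.val : ℤ) else 0))⁻¹ := by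
    intro i
    obtain ⟨k, hk⟩ := Int.dvd_of_emod_eq_zero (T.hB i j)
    have e : (cartanFin D * T.B) i j = (if i = j then 1 else 0) - (if i.val = T.i0 then (T.a j.val : ℤ) else 0) + (T.p : ℤ) * k := by
      linarith
    rw [e, zpow_add, zpow_sub, zpow_mul, zpow_natCast, hp i, one_zpow, mul_one]
  simp only [h3] at h2
  rw [Finset.prod_mul_distrib, Finset.prod_inv_distrib] at h2
  have e1 : ∏ i : Fin D.rank, c i ^ (if i = j then (1 : ℤ) else 0) = c j := by
    rw [Finset.prod_eq_single j]
    · simp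
    · intro b _ hb
      simp [hb]
    · simp
  have e2 : ∏ i : Fin D.rank, c i ^ (if i.val = T.i0 then (T.a j.val : ℤ) else 0) = c ⟨T.i0, T.hi0⟩ ^ T.a j.val := by
    rw [Finset.prod_eq_single (⟨T.i0, T.hi0⟩ : Fin D.rank)]
    · simp
    · intro b _ hb
      have : b.val ≠ T.i0 := fun e => hb (Fin.ext e)
      simp [this]
    · simp
  rw [e1, e2, mul_inv_eq_one] at h2
  exact h2

theorem tor_of {ζ : Kˣ} (hζ : ζ ^ T.p = 1) : act (cartanFin D) (fun i : Fin D.rank => ζ ^ T.a i.val) = 1 := by
  ext j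
  simp only [act_apply, Pi.one_apply]
  have e : ∀ i : Fin D.rank, (ζ ^ T.a i.val) ^ cartanFin D i j = ζ ^ ((T.a i.val : ℤ) * cartanFin D i j) := by
    intro i
    rw [zpow_mul, zpow_natCast]
  simp only [e]
  rw [prod_zpow_const]
  obtain ⟨k, hk⟩ := Int.dvd_of_emod_eq_zero (T.hC j)
  rw [hk, zpow_mul, zpow_natCast, hζ, one_zpow]

/-- The central elements. -/
noncomputable def zz (K : Type*) [Field K] (ζ : K) : D.SteinbergGroup K := hP D K (fun i => ζ ^ T.a i) (List.range D.rank)

end TorD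

namespace SchT

variable (G : Good5 D) (T : TorD D)
include G

/-- The kernel of the map to the Chevalley group. -/
theorem mem_kerD {z : D.SteinbergGroup K} : z ∈ (G.thetaD K).ker ↔ G.thetaG z = 1 := by
  rw [MonoidHom.mem_ker]
  constructor
  · intro h
    have := congrArg Subtype.val h
    exact this
  · intro h
    exact Subtype.ext h

theorem theta_zz {ζ : K} (h0 : ζ ≠ 0) (hζ : ζ ^ T.p = 1) : G.thetaG (T.zz K ζ) = 1 := by
  let u : Kˣ := Units.mk0 ζ h0
  let c : Fin D.rank → Kˣ := fun i => u ^ T.a i.val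
  have hu : u ^ T.p = 1 := Units.ext (by simp [u, hζ])
  have h1 : c ∈ (act (cartanFin D) : (Fin D.rank → Kˣ) →* (Fin D.rank → Kˣ)).ker := T.tor_of hu
  rw [← G.toGood2.torusHom_ker, MonoidHom.mem_ker] at h1
  apply Units.ext
  have hc : ∀ i : ℕ, ζ ^ T.a i ≠ 0 := fun i => pow_ne_zero _ h0
  have e := G.theta_hP hc (L := List.range D.rank) (fun i hi => List.mem_range.mp hi)
  have e2 := congrArg Units.val h1
  rw [G.toGood2.torusHom_val] at e2
  refine e.trans (Eq.trans ?_ e2)
  congr 1
  funext s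
  unfold chiL
  congr 1
  apply List.map_congr_left
  intro i hi
  have := List.mem_range.mp hi
  simp [extU, this, c, u]

theorem ker_form (M : CoxeterMatrix (Fin D.rank)) (hM : ∀ i j : Fin D.rank, G.cm i j = M i j) {z : D.SteinbergGroup K}
    (hz : G.thetaG z = 1) : ∃ ζ : K, ζ ≠ 0 ∧ ζ ^ T.p = 1 ∧ z = T.zz K ζ := by
  obtain ⟨c, hc, rfl⟩ := G.HB_form (G.ker_le_HB M hM hz)
  have h2 := G.theta_eq_one_iff hc hz
  have h3 := T.tor_p h2 ⟨T.i0, T.hi0⟩
  have h4 := T.tor_eq h2
  refine ⟨c T.i0, hc _, ?_, ?_⟩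
  · have := congrArg Units.val h3
    simpa using this
  · apply hP_congr
    intro i hi
    have hi' := List.mem_range.mp hi
    have := congrArg Units.val (h4 ⟨i, hi'⟩)
    simpa using this

theorem zz_mul {ζ ξ : K} (h0 : ζ ≠ 0) (h1 : ξ ≠ 0) : T.zz K ζ * T.zz K ξ = T.zz K (ζ * ξ) := by
  unfold TorD.zz
  rw [G.hP_mul]
  · apply hP_congr
    intro i _
    rw [mul_pow]
  · intro i hi
    exact ⟨List.mem_range.mp hi, pow_ne_zero _ h0, pow_ne_zero _ h1⟩

theorem zz_one : T.zz K (1 : K) = 1 := by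
  unfold TorD.zz
  rw [hP_congr (c' := fun _ => 1)]
  · exact G.hP_one fun i hi => List.mem_range.mp hi
  · intro i _
    simp

theorem zz_pow {ζ : K} (h0 : ζ ≠ 0) (k : ℕ) : T.zz K ζ ^ k = T.zz K (ζ ^ k) := by
  induction k with
  | zero => simp [zz_one G T]
  | succ k ih => rw [pow_succ, ih, zz_mul G T (pow_ne_zero _ h0) h0, pow_succ]

/-- The group of Steinberg's presentation is finite. -/
theorem st_finite [Finite K] (M : CoxeterMatrix (Fin D.rank)) (hM : ∀ i j : Fin D.rank, G.cm i j = M i j) :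
    Finite (D.SteinbergGroup K) := by
  classical
  have hk : Finite (G.thetaD K).ker := by
    let f : (Fin D.rank → K) → D.SteinbergGroup K := fun c => hP D K (fun i => if h : i < D.rank then c ⟨i, h⟩ else 1) (List.range D.rank)
    have hsub : ((G.thetaD K).ker : Set (D.SteinbergGroup K)) ⊆ Set.range f := by
      intro z hz
      have hz' : G.thetaG z = 1 := (mem_kerD G).mp hz
      obtain ⟨c, hc, rfl⟩ := G.HB_form (G.ker_le_HB M hM hz')
      refine ⟨fun i => c i.val, ?_⟩
      apply hP_congr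
      intro i hi
      have hi' := List.mem_range.mp hi
      simp [hi']
    exact ((Set.finite_range f).subset hsub).to_subtype
  have hq : Finite (D.SteinbergGroup K ⧸ (G.thetaD K).ker) :=
    Finite.of_injective _ (QuotientGroup.quotientKerEquivOfSurjective (G.thetaD K) G.thetaD_surj).injective
  exact Finite.of_equiv _ (Subgroup.groupEquivQuotientProdSubgroup (s := (G.thetaD K).ker)).symm

/-- The group of Steinberg's presentation is perfect. -/
theorem st_perfect (S : SchData G) (M : CoxeterMatrix (Fin D.rank)) (hM : ∀ i j : Fin D.rank, G.cm i j = M i j) :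
    commutator (D.SteinbergGroup K) = ⊤ := by
  have hl : ∀ r, r < D.nroots → ∀ t : K, ∃ a, G.thetaG a = G.xgt r t := fun r hr t => ⟨D.stGen K r t, G.thetaG_gen r t⟩
  have hz : ∀ z, G.thetaG z = 1 → ∀ g : D.SteinbergGroup K, g * z = z * g := by
    intro z hz g
    exact Subgroup.mem_center_iff.mp (G.central_of_ker (G.ker_le_HB M hM hz) hz) g
  rw [eq_top_iff, ← PresentedGroup.closure_range_of (D.steinbergRels K), Subgroup.closure_le]
  rintro _ ⟨x, rfl⟩
  rw [of_eq_stGen]
  set q := x.1.val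
  set w := x.2
  have hq : q < D.nroots := x.1.isLt
  obtain ⟨⟨C, h₀⟩, -, -⟩ := S.fa_spec hq hq S.cmB_self
  generalize (S.fa q q).1 = r at h₀
  generalize (S.fa q q).2 = s at h₀
  have hr := h₀.1
  have hs := h₀.2.1
  set u : K := (C : K) * w with hu
  have e1 : D.commWord K r s 1 u = [(q, (C : K) * (-1) * u)] := by
    simp only [ChevalleyDatum.commWord, h₀.2.2.2.2.2.2.1, List.map_cons, List.map_nil, pow_one]
  have e2 := stGen_R2 hr hs h₀.2.2.2.1 h₀.2.2.2.2.1 (1 : K) u
  rw [e1] at e2
  have e3 : wB D K [(q, (C : K) * (-1) * u)] = (D.stGen K q w)⁻¹ := by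
    rw [wB_cons, wB_nil, mul_one, eq_inv_iff_mul_eq_one, stGen_R1 hq]
    have : (C : K) * (-1) * u + w = 0 := by
      rw [hu]
      have h6 := dc_cm_self (K := K) h₀
      calc (C : K) * (-1) * ((C : K) * w) + w = (1 - (C : K) * (C : K)) * w := by ring
        _ = 0 := by rw [h6]; ring
    rw [this]
    have h7 := stGen_R1 hq (0 : K) 0
    rw [add_zero] at h7
    exact mul_eq_left.mp h7
  rw [e3] at e2
  have e4 : cc (D.stGen K r 1) (D.stGen K s u) = D.stGen K q w := by
    have c1 : D.stGen K r 1 * (D.stGen K q w)⁻¹ = (D.stGen K q w)⁻¹ * D.stGen K r 1 := by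
      have := Cm_lifts S hl hz hr hq h₀.2.2.2.2.2.2.2.1 (t := (1 : K)) (w := w) (A := D.stGen K r 1) (B := D.stGen K q w)
        (G.thetaG_gen r 1) (G.thetaG_gen q w)
      exact (show Commute _ _ from this).inv_right
    have c2 : D.stGen K s u * (D.stGen K q w)⁻¹ = (D.stGen K q w)⁻¹ * D.stGen K s u := by
      have := Cm_lifts S hl hz hs hq h₀.2.2.2.2.2.2.2.2 (t := u) (w := w) (A := D.stGen K s u) (B := D.stGen K q w)
        (G.thetaG_gen s u) (G.thetaG_gen q w)
      exact (show Commute _ _ from this).inv_right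
    rw [cc_of e2 c1 c2, inv_inv]
  rw [← e4]
  exact Subgroup.commutator_mem_commutator (Subgroup.mem_top _) (Subgroup.mem_top _)

/-- The Schur multiplier from the kernel of the map to the Chevalley group. -/
theorem schur_of [Finite K] (S : SchData G) (C : CTData G) (F : SchF G C) (M : CoxeterMatrix (Fin D.rank))
    (hM : ∀ i j : Fin D.rank, G.cm i j = M i j) {A : Type*} [CommGroup A] (e : (G.thetaD K).ker ≃* A) :
    HasSchurMultiplier ↥(D.group K) A := by
  have hfin := st_finite G (K := K) M hM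
  constructor
  · refine ⟨D.SteinbergGroup K, inferInstance, hfin, G.thetaD K, ⟨G.thetaD_surj, ?_, ?_⟩, ⟨e⟩⟩
    · exact (G.thetaD_ker M hM).le
    · rw [st_perfect G S M hM]
      exact le_top
  · intro Γ _ _ σ hσ
    obtain ⟨φ, h1, h2⟩ := stem_phi G S C F σ hσ
    have hm : ∀ y : (G.thetaD K).ker, φ y.1 ∈ σ.ker := by
      intro y
      rw [MonoidHom.mem_ker]
      apply Subtype.ext
      have := h1 y.1
      rw [(mem_kerD G).mp y.2] at this
      exact this
    let f : (G.thetaD K).ker →* σ.ker := (φ.comp (G.thetaD K).ker.subtype).codRestrict σ.ker hm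
    refine ⟨f.comp e.symm.toMonoidHom, ?_⟩
    intro s
    obtain ⟨y, hy⟩ := h2 s.2
    have hy1 : y ∈ (G.thetaD K).ker := by
      rw [mem_kerD G, ← h1, hy, MonoidHom.mem_ker.mp s.2]
      rfl
    refine ⟨e ⟨y, hy1⟩, ?_⟩
    apply Subtype.ext
    simp only [MonoidHom.comp_apply, MulEquiv.coe_toMonoidHom, MulEquiv.symm_apply_apply]
    exact hy

section Main

variable [Fintype K] {q : ℕ} (hq : Fintype.card K = q) {S : SchData G} {N : ℕ} (P : RepD G S N) (hP0 : P.i0 = T.i0)
  (M : CoxeterMatrix (Fin D.rank)) (hM : ∀ i j : Fin D.rank, G.cm i j = M i j)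

include P hP0 in
/-- The central elements are different. -/
theorem zz_inj {ζ : K} (h0 : ζ ≠ 0) (h : T.zz K ζ = 1) : ζ = 1 := by
  obtain ⟨φ, hφ⟩ := P.exists_rep (K := K)
  have e := P.rep_hP hφ (c := fun i => ζ ^ T.a i) (L := List.range D.rank)
    (fun i hi => ⟨List.mem_range.mp hi, pow_ne_zero _ h0⟩) (List.nodup_range)
  have e1 : hP D K (fun i => ζ ^ T.a i) (List.range D.rank) = 1 := h
  rw [e1, map_one, Units.val_one, Matrix.one_mulVec, hP0, if_pos (List.mem_range.mpr T.hi0), T.ha, pow_one] at e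
  have hN := P.N_pos
  have e2 := congrFun e ⟨0, hN⟩
  simpa [RepD.vS] using e2.symm

include hq P hP0 M hM in
/-- The order of the kernel. -/
theorem ker_card : Nat.card (G.thetaD K).ker = Nat.gcd T.p (q - 1) := by
  have : Fact T.p.Prime := ⟨T.hp⟩
  by_cases hd : T.p ∣ q - 1
  · rw [Nat.gcd_eq_left hd]
    have hcard : Nat.card Kˣ = q - 1 := by
      classical
      rw [Nat.card_eq_fintype_card, Fintype.card_units, hq]
    obtain ⟨u, hu⟩ := exists_prime_orderOf_dvd_card' T.p (by rw [hcard]; exact hd)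
    have hprim : IsPrimitiveRoot (u : K) T.p := by
      have h1 := IsPrimitiveRoot.orderOf u
      rw [hu] at h1
      exact h1.map_of_injective (f := Units.coeHom K) Units.val_injective
    have h0 : (u : K) ≠ 0 := u.ne_zero
    set z := T.zz K (u : K) with hz
    have hz1 : z ^ T.p = 1 := by
      rw [hz, zz_pow G T h0, hprim.pow_eq_one, zz_one G]
    have hz2 : z ≠ 1 := by
      intro e
      have := zz_inj G T P hP0 h0 e
      have h3 := hprim.ne_one T.hp.one_lt
      exact h3 this
    have hord : orderOf z = T.p := orderOf_eq_prime hz1 hz2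
    have hker : (G.thetaD K).ker = Subgroup.zpowers z := by
      apply le_antisymm
      · intro y hy
        obtain ⟨ξ, h1, h2, rfl⟩ := ker_form G T M hM ((mem_kerD G).mp hy)
        have : NeZero T.p := ⟨T.hp.ne_zero⟩
        obtain ⟨i, _, rfl⟩ := hprim.eq_pow_of_pow_eq_one h2
        rw [← zz_pow G T h0]
        exact Subgroup.npow_mem_zpowers _ _
      · rw [Subgroup.zpowers_le, mem_kerD G]
        exact theta_zz G T h0 hprim.pow_eq_one
    rw [hker, Nat.card_zpowers, hord]
  · have hcop : Nat.gcd T.p (q - 1) = 1 := (Nat.Prime.coprime_iff_not_dvd T.hp).mpr hd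
    rw [hcop]
    have hker : (G.thetaD K).ker = ⊥ := by
      rw [eq_bot_iff]
      intro y hy
      obtain ⟨ξ, h1, h2, rfl⟩ := ker_form G T M hM ((mem_kerD G).mp hy)
      have h3 : ξ ^ (q - 1) = 1 := by
        rw [← hq]
        exact FiniteField.pow_card_sub_one_eq_one ξ h1
      have h4 := pow_gcd_eq_one.mpr ⟨h2, h3⟩
      rw [hcop, pow_one] at h4
      rw [h4, zz_one G]
      exact Subgroup.one_mem _
    rw [hker]
    simp

include hq P hP0 M hM in
/-- The kernel as a cyclic group. -/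
theorem ker_iso : Nonempty ((G.thetaD K).ker ≃* Multiplicative (ZMod (Nat.gcd T.p (q - 1)))) := by
  have hc := ker_card G T hq P hP0 M hM
  by_cases hd : T.p ∣ q - 1
  · have hg : Nat.gcd T.p (q - 1) = T.p := Nat.gcd_eq_left hd
    rw [hg] at hc ⊢
    have : Fact T.p.Prime := ⟨T.hp⟩
    have h2 : Nat.card (Multiplicative (ZMod T.p)) = T.p := by
      rw [Nat.card_eq_fintype_card, Fintype.card_multiplicative, ZMod.card]
    exact ⟨mulEquivOfPrimeCardEq hc h2⟩
  · have hg : Nat.gcd T.p (q - 1) = 1 := (Nat.Prime.coprime_iff_not_dvd T.hp).mpr hd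
    rw [hg] at hc ⊢
    have : Subsingleton (G.thetaD K).ker := (Nat.card_eq_one_iff_unique.mp hc).1
    refine ⟨{ toFun := fun _ => 1, invFun := fun _ => 1, left_inv := ?_, right_inv := ?_, map_mul' := ?_ }⟩
    · intro x
      exact Subsingleton.elim _ _
    · intro x
      exact Subsingleton.elim _ _
    · intro x y
      exact Subsingleton.elim _ _

end Main

end SchT

end Cfsg.Agent.Lib.CT
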