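import Cfsg.Agent.Lib.Chev.WeylMain

/-!
Generation and centres of the Weyl groups, through their action on the roots.
-/

set_option autoImplicit false
set_option linter.unusedSimpArgs false
set_option linter.unusedVariables false
set_option linter.unusedSectionVars false

namespace Cfsg.Agent.Lib.CT

open Cfsg Cfsg.Lie Cfsg.Agent.Lib.Chev
open Good2 (NN lenN)

variable {D : ChevalleyDatum}

/-- The simple reflection with a given number. -/
noncomputable def sN (M : CoxeterMatrix (Fin D.rank)) (i : ℕ) : M.Group :=
  if h : i < D.rank then M.simple ⟨i, h⟩ else 1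

/-- The product of simple reflections along a word. -/
noncomputable def wN (M : CoxeterMatrix (Fin D.rank)) (u : List ℕ) : M.Group := (u.map (sN M)).prod

theorem wN_nil (M : CoxeterMatrix (Fin D.rank)) : wN M [] = 1 := rfl

theorem wN_cons (M : CoxeterMatrix (Fin D.rank)) (i : ℕ) (u : List ℕ) : wN M (i :: u) = sN M i * wN M u := by
  simp [wN]

theorem wN_append (M : CoxeterMatrix (Fin D.rank)) (u v : List ℕ) : wN M (u ++ v) = wN M u * wN M v := by
  simp [wN, List.prod_append]

theorem wN_map (M : CoxeterMatrix (Fin D.rank)) (l : List (Fin D.rank)) :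
    wN M (l.map Fin.val) = (l.map M.simple).prod := by
  induction l with
  | nil => rfl
  | cons i l ih =>
    rw [List.map_cons, wN_cons, ih, List.map_cons, List.prod_cons]
    congr 1
    exact dif_pos i.isLt

theorem wN_range (M : CoxeterMatrix (Fin D.rank)) :
    wN M (List.range D.rank) = ((List.finRange D.rank).map M.simple).prod := by
  rw [← wN_map]
  congr 1
  simp

/-- The check of the words for the generation. -/
def chkVv (W : ℕ → ℕ → ℕ) (n l : ℕ) (Gw : List (List ℕ)) (V : ℕ → List ℕ) : Bool :=
  Gw.all (fun u => u.all (fun i => decide (i < l))) &&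
  allLt l (fun i => (V i).all (fun a => decide (a < Gw.length)) &&
    allLt n fun s => Nat.beq (((V i).flatMap fun a => Gw.getD a []).foldr W s) (W i s))

section Words

variable (G : Good4 D) (M : CoxeterMatrix (Fin D.rank)) (e : M.Group ≃* G.WP)
  (he : ∀ i, e (M.simple i) = G.Wg i)
include he

theorem e_wN (u : List ℕ) (hu : ∀ i ∈ u, i < D.rank) (s : Fin D.nroots) :
    (((e (wN M u) : G.WP) : Equiv.Perm (Fin D.nroots)) s).val = u.foldr G.W s.val := by
  induction u with
  | nil =>
    rw [wN_nil, map_one]
    rfl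
  | cons i u ih =>
    have hi := hu i List.mem_cons_self
    have ih' := ih fun j hj => hu j (List.mem_cons_of_mem _ hj)
    rw [wN_cons, map_mul, sN, dif_pos hi, he, List.foldr_cons, ← ih']
    rfl

end Words

theorem all_mem_of_flat {Γ : Type*} [Group Γ] (S : Subgroup Γ) (f : List ℕ → Γ) (hf1 : f [] = 1)
    (hf2 : ∀ u v, f (u ++ v) = f u * f v) (Gw : List (List ℕ)) (hS : ∀ u ∈ Gw, f u ∈ S) (v : List ℕ)
    (hv : ∀ a ∈ v, a < Gw.length) : f (v.flatMap fun a => Gw.getD a []) ∈ S := by
  induction v with
  | nil =>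
    rw [List.flatMap_nil, hf1]
    exact S.one_mem
  | cons a v ih =>
    rw [List.flatMap_cons, hf2]
    refine S.mul_mem (hS _ ?_) (ih fun b hb => hv b (List.mem_cons_of_mem _ hb))
    have ha := hv a List.mem_cons_self
    rw [List.getD_eq_getElem _ _ ha]
    exact List.getElem_mem ha

theorem top_of_words (G : Good4 D) (M : CoxeterMatrix (Fin D.rank)) (hM : ∀ i j : Fin D.rank, G.cm i j = M i j)
    (Gw : List (List ℕ)) (V : ℕ → List ℕ) (hV : chkVv G.W D.nroots D.rank Gw V = true) (S : Subgroup M.Group)
    (hS : ∀ u ∈ Gw, wN M u ∈ S) : S = ⊤ := by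
  obtain ⟨e, he⟩ := G.weyl_equiv M hM
  simp only [chkVv, Bool.and_eq_true, List.all_eq_true, decide_eq_true_eq] at hV
  obtain ⟨h1, h2⟩ := hV
  have hs : ∀ i : Fin D.rank, M.simple i ∈ S := by
    intro i
    have h3 := (allLt_iff _ _).mp h2 i i.isLt
    simp only [Bool.and_eq_true, List.all_eq_true, decide_eq_true_eq] at h3
    obtain ⟨h4, h5⟩ := h3
    have e1 : wN M ((V i).flatMap fun a => Gw.getD a []) = M.simple i := by
      apply e.injective
      rw [he]
      apply Subtype.ext
      apply Equiv.ext
      intro s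
      apply Fin.ext
      rw [e_wN G M e he]
      · exact Nat.eq_of_beq_eq_true ((allLt_iff _ _).mp h5 s s.isLt)
      · intro j hj
        simp only [List.mem_flatMap] at hj
        obtain ⟨a, ha, hj⟩ := hj
        have ha' := h4 a ha
        rw [List.getD_eq_getElem _ _ ha'] at hj
        exact h1 _ (List.getElem_mem ha') j hj
    rw [← e1]
    exact all_mem_of_flat S (wN M) (wN_nil M) (wN_append M) Gw hS (V i) h4
  rw [eq_top_iff, ← M.toCoxeterSystem.subgroup_closure_range_simple]
  apply (Subgroup.closure_le _).mpr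
  rintro _ ⟨i, rfl⟩
  exact hs i

open Classical in
/-- Generation by the Coxeter element and some simple reflections. -/
theorem cox_refl (G : Good4 D) (M : CoxeterMatrix (Fin D.rank)) (hM : ∀ i j : Fin D.rank, G.cm i j = M i j)
    (js : List ℕ) (hjs : js.Nodup) (hjl : ∀ j ∈ js, j < D.rank) (V : ℕ → List ℕ)
    (hV : chkVv G.W D.nroots D.rank (List.range D.rank :: js.map fun j => [j]) V = true) :
    ∃ T : Finset M.Group, T.card = js.length ∧ (∀ t ∈ T, ∃ (g : M.Group) (i : Fin D.rank), t = g * M.simple i * g⁻¹) ∧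
      Subgroup.closure (({((List.finRange D.rank).map M.simple).prod} : Set M.Group) ∪ ↑T) = ⊤ := by
  obtain ⟨e, he⟩ := G.weyl_equiv M hM
  refine ⟨(js.map (sN M)).toFinset, ?_, ?_, ?_⟩
  · rw [List.toFinset_card_of_nodup, List.length_map]
    refine List.Nodup.map_on ?_ hjs
    intro a ha b hb hab
    have h1 := hjl a ha
    have h2 := hjl b hb
    simp only [sN, dif_pos h1, dif_pos h2] at hab
    have h3 := congrArg e hab
    rw [he, he] at h3
    have := G.Wg_inj h3
    exact congrArg Fin.val this
  · intro t ht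
    simp only [List.mem_toFinset, List.mem_map] at ht
    obtain ⟨j, hj, rfl⟩ := ht
    have h1 := hjl j hj
    refine ⟨1, ⟨j, h1⟩, ?_⟩
    simp [sN, dif_pos h1]
  · refine top_of_words G M hM _ V hV _ ?_
    intro u hu
    rcases List.mem_cons.mp hu with rfl | hu
    · rw [wN_range]
      exact Subgroup.subset_closure (Or.inl rfl)
    · simp only [List.mem_map] at hu
      obtain ⟨j, hj, rfl⟩ := hu
      apply Subgroup.subset_closure
      right
      have : wN M [j] = sN M j := by simp [wN]
      rw [this]
      simp only [Finset.mem_coe, List.mem_toFinset, List.mem_map]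
      exact ⟨j, hj, rfl⟩

end Cfsg.Agent.Lib.CT
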