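import Cfsg.Agent.Lib.CT.WG
import Cfsg.Agent.Lib.Chev.Long

/-!
The centres of the Weyl groups.
-/

set_option autoImplicit false
set_option linter.unusedSimpArgs false
set_option linter.unusedVariables false
set_option linter.unusedSectionVars false

namespace Cfsg.Agent.Lib.CT

open Cfsg Cfsg.Lie Cfsg.Agent.Lib.Chev
open Good2 (NN lenN)

variable {D : ChevalleyDatum}

/-- The roots fixed by the stabilizer of a root. -/
def fixC (W : ℕ → ℕ → ℕ) (neg : ℕ → ℕ) (n l x : ℕ) : Bool :=
  allLt n fun r => Nat.beq r x || Nat.beq r (neg x) ||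
    (List.range l).any fun i => Nat.beq (W i x) x && !Nat.beq (W i r) r

/-- The check for the centre. -/
def chkZc (W : ℕ → ℕ → ℕ) (neg : ℕ → ℕ) (n l r0 r1 : ℕ) : Bool :=
  decide (r0 < n) && decide (r1 < n) &&
  (allLt n fun r => Nat.beq r r0 || Nat.beq r r1 || (List.range l).any fun i => decide (r < W i r)) &&
  fixC W neg n l r0 && fixC W neg n l r1

section Two

variable (G : Good2 D)
include G

theorem climb_all {r0 r1 : Fin D.nroots} (h : allLt D.nroots (fun r => Nat.beq r r0 || Nat.beq r r1 ||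
      (List.range D.rank).any fun i => decide (r < G.W i r)) = true)
    (Q : Fin D.nroots → Prop) (hQ : ∀ i r, Q r → Q (G.Wp i r)) (h0 : Q r0) (h1 : Q r1) : ∀ r, Q r := by
  have key : ∀ k : ℕ, ∀ r : Fin D.nroots, D.nroots - r.val ≤ k → Q r := by
    intro k
    induction k with
    | zero =>
      intro r hr
      have := r.isLt
      omega
    | succ k ih =>
      intro r hr
      have h2 := (allLt_iff _ _).mp h r r.isLt
      simp only [Bool.or_eq_true, List.any_eq_true, List.mem_range, decide_eq_true_eq] at h2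
      rcases h2 with (h2 | h2) | ⟨i, hi, h2⟩
      · have : r = r0 := Fin.ext (Nat.eq_of_beq_eq_true h2)
        rw [this]
        exact h0
      · have : r = r1 := Fin.ext (Nat.eq_of_beq_eq_true h2)
        rw [this]
        exact h1
      · have h3 := ih (G.Wp ⟨i, hi⟩ r) (by
          have : r.val < (G.Wp ⟨i, hi⟩ r).val := h2
          have h5 := (G.Wp ⟨i, hi⟩ r).isLt
          omega)
        have h4 := hQ ⟨i, hi⟩ _ h3
        have e : G.Wp ⟨i, hi⟩ (G.Wp ⟨i, hi⟩ r) = r := by
          have := G.Wp_mul_self (⟨i, hi⟩ : Fin D.rank)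
          exact Equiv.congr_fun this r
        rwa [e] at h4
  intro r
  exact key _ r le_rfl

theorem fix_cases {x : Fin D.nroots} (h : fixC G.W D.neg D.nroots D.rank x = true) (z : Equiv.Perm (Fin D.nroots))
    (hz : ∀ i, z * G.Wp i = G.Wp i * z) : z x = x ∨ z x = G.nf x := by
  have h2 := (allLt_iff _ _).mp h (z x) (z x).isLt
  simp only [Bool.or_eq_true, List.any_eq_true, List.mem_range, Bool.and_eq_true, Bool.not_eq_true'] at h2
  rcases h2 with (h2 | h2) | ⟨i, hi, h2, h3⟩
  · exact Or.inl (Fin.ext (Nat.eq_of_beq_eq_true h2))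
  · exact Or.inr (Fin.ext (Nat.eq_of_beq_eq_true h2))
  · exfalso
    have h4 : G.Wp ⟨i, hi⟩ x = x := Fin.ext (Nat.eq_of_beq_eq_true h2)
    have h5 := Equiv.congr_fun (hz ⟨i, hi⟩) x
    simp only [Equiv.Perm.mul_apply, h4] at h5
    have h6 : G.W i (z x) = (z x).val := congrArg Fin.val h5.symm
    rw [h6, Nat.beq_refl] at h3
    exact Bool.noConfusion h3

theorem z_cases {r0 r1 : ℕ} (hchk : chkZc G.W D.neg D.nroots D.rank r0 r1 = true) (hp1 : D.pairing r0 r1 ≠ 0)
    (hp2 : D.pairing r1 r0 ≠ 0) (l0 : List (Fin D.rank)) (hz : ∀ i, G.pp l0 * G.Wp i = G.Wp i * G.pp l0) :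
    (∀ s, G.pp l0 s = s) ∨ (∀ s, G.pp l0 s = G.nf s) := by
  simp only [chkZc, Bool.and_eq_true, decide_eq_true_eq] at hchk
  obtain ⟨⟨⟨⟨h0, h1⟩, hc⟩, hf0⟩, hf1⟩ := hchk
  have hplus : ∀ x, G.pp l0 x = x → ∀ i, G.pp l0 (G.Wp i x) = G.Wp i x := by
    intro x hx i
    have h5 := Equiv.congr_fun (hz i) x
    simp only [Equiv.Perm.mul_apply] at h5
    rw [h5, hx]
  have hminus : ∀ x, G.pp l0 x = G.nf x → ∀ i, G.pp l0 (G.Wp i x) = G.nf (G.Wp i x) := by
    intro x hx i
    have h5 := Equiv.congr_fun (hz i) x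
    simp only [Equiv.Perm.mul_apply] at h5
    rw [h5, hx, G.Wp_nf]
  set a : Fin D.nroots := ⟨r0, h0⟩ with ha
  set b : Fin D.nroots := ⟨r1, h1⟩ with hb
  have hpp := G.pairing_pp l0 a b
  have hpp' := G.pairing_pp l0 b a
  rcases fix_cases G (x := a) hf0 _ hz with e0 | e0 <;> rcases fix_cases G (x := b) hf1 _ hz with e1 | e1
  · left
    exact climb_all G (r0 := a) (r1 := b) hc _ (fun i r hr => hplus r hr i) e0 e1
  · exfalso
    rw [e0, e1] at hpp
    have h7 : D.pairing r0 (D.neg r1) = D.pairing r0 r1 := hpp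
    rw [G.pairing_neg _ _ h1] at h7
    apply hp1
    omega
  · exfalso
    rw [e0, e1] at hpp'
    have h7 : D.pairing r1 (D.neg r0) = D.pairing r1 r0 := hpp'
    rw [G.pairing_neg _ _ h0] at h7
    apply hp2
    omega
  · right
    exact climb_all G (r0 := a) (r1 := b) hc _ (fun i r hr => hminus r hr i) e0 e1

end Two

section Four

variable (G : Good4 D) (M : CoxeterMatrix (Fin D.rank)) (e : M.Group ≃* G.WP)
  (he : ∀ i, e (M.simple i) = G.Wg i)
include he

theorem center_cases {r0 r1 : ℕ} (hchk : chkZc G.W D.neg D.nroots D.rank r0 r1 = true) (hp1 : D.pairing r0 r1 ≠ 0)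
    (hp2 : D.pairing r1 r0 ≠ 0) {z : M.Group} (hz : z ∈ Subgroup.center M.Group) :
    ∃ l0 : List (Fin D.rank), ((e z : G.WP) : Equiv.Perm (Fin D.nroots)) = G.pp l0 ∧
      ((∀ s, G.pp l0 s = s) ∨ (∀ s, G.pp l0 s = G.nf s)) := by
  obtain ⟨l0, hl0⟩ := (G.mem_WP_iff).mp (e z).2
  refine ⟨l0, hl0.symm, ?_⟩
  apply z_cases G.toGood2 hchk hp1 hp2
  intro i
  have h1 := (Subgroup.mem_center_iff.mp hz) (M.simple i)
  have h2 := congrArg e h1
  rw [map_mul, map_mul, he] at h2
  have h3 := congrArg Subtype.val h2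
  simp only [Subgroup.coe_mul] at h3
  rw [hl0]
  exact h3.symm

theorem e_eq_of_perm {z z' : M.Group} (h : ∀ s, ((e z : G.WP) : Equiv.Perm (Fin D.nroots)) s =
    ((e z' : G.WP) : Equiv.Perm (Fin D.nroots)) s) : z = z' := by
  apply e.injective
  apply Subtype.ext
  exact Equiv.ext h

theorem e_one_of_perm {z : M.Group} (h : ∀ s, ((e z : G.WP) : Equiv.Perm (Fin D.nroots)) s = s) : z = 1 := by
  apply e_eq_of_perm G M e he
  intro s
  rw [h, map_one]
  rfl

end Four

theorem wN_replicate (M : CoxeterMatrix (Fin D.rank)) (u : List ℕ) (k : ℕ) :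
    wN M (List.replicate k u).flatten = wN M u ^ k := by
  induction k with
  | zero => simp [wN_nil]
  | succ k ih =>
    rw [List.replicate_succ, List.flatten_cons, wN_append, ih, pow_succ']

/-- The centre of a Weyl group containing `-1`. -/
theorem center_two (G : Good4 D) (M : CoxeterMatrix (Fin D.rank)) (hM : ∀ i j : Fin D.rank, G.cm i j = M i j)
    {r0 r1 : ℕ} (hchk : chkZc G.W D.neg D.nroots D.rank r0 r1 = true) (hp1 : D.pairing r0 r1 ≠ 0)
    (hp2 : D.pairing r1 r0 ≠ 0) (k : ℕ)
    (hk : allLt D.nroots (fun s => Nat.beq ((List.replicate k (List.range D.rank)).flatten.foldr G.W s) (D.neg s)) = true) :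
    Nat.card (Subgroup.center M.Group) = 2 ∧
      Subgroup.center M.Group ≤ Subgroup.zpowers ((List.finRange D.rank).map M.simple).prod := by
  obtain ⟨e, he⟩ := G.weyl_equiv M hM
  set c := ((List.finRange D.rank).map M.simple).prod with hc
  have hcw : c = wN M (List.range D.rank) := (wN_range M).symm
  have hz0 : ∀ s, ((e (c ^ k) : G.WP) : Equiv.Perm (Fin D.nroots)) s = G.nf s := by
    intro s
    apply Fin.ext
    rw [hcw, ← wN_replicate, e_wN G M e he]
    · exact Nat.eq_of_beq_eq_true ((allLt_iff _ _).mp hk s s.isLt)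
    · intro i hi
      simp only [List.mem_flatten, List.mem_replicate] at hi
      obtain ⟨u, ⟨_, rfl⟩, hi⟩ := hi
      exact List.mem_range.mp hi
  have hcen : c ^ k ∈ Subgroup.center M.Group := by
    rw [Subgroup.mem_center_iff]
    intro g
    apply e_eq_of_perm G M e he
    intro s
    obtain ⟨l', hl'⟩ := (G.mem_WP_iff).mp (e g).2
    rw [map_mul, map_mul]
    show ((e g : G.WP) : Equiv.Perm (Fin D.nroots)) (((e (c ^ k) : G.WP) : Equiv.Perm (Fin D.nroots)) s) =
      ((e (c ^ k) : G.WP) : Equiv.Perm (Fin D.nroots)) (((e g : G.WP) : Equiv.Perm (Fin D.nroots)) s)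
    rw [hz0, hz0, ← hl', G.pp_nf]
  have hne : c ^ k ≠ 1 := by
    intro h1
    have hr : 0 < D.rank := G.rank_pos
    have h2 := hz0 (G.ps ⟨0, hr⟩)
    rw [h1, map_one] at h2
    have h3 : G.ps ⟨0, hr⟩ = G.nf (G.ps ⟨0, hr⟩) := h2
    have h4 := G.nf_pos_iff (G.ps ⟨0, hr⟩)
    rw [← h3] at h4
    exact iff_not_self h4
  have hall : ∀ z ∈ Subgroup.center M.Group, z = 1 ∨ z = c ^ k := by
    intro z hz
    obtain ⟨l0, h1, h2⟩ := center_cases G M e he hchk hp1 hp2 hz
    rcases h2 with h2 | h2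
    · left
      apply e_one_of_perm G M e he
      intro s
      rw [h1, h2]
    · right
      apply e_eq_of_perm G M e he
      intro s
      rw [h1, h2, hz0]
  constructor
  · rw [Nat.card_eq_two_iff]
    refine ⟨1, ⟨c ^ k, hcen⟩, ?_, ?_⟩
    · intro h
      exact hne (congrArg Subtype.val h).symm
    · ext ⟨z, hz⟩
      simp only [Set.mem_insert_iff, Set.mem_singleton_iff, Set.mem_univ, iff_true, Subtype.ext_iff, Subgroup.coe_one]
      exact hall z hz
  · intro z hz
    rcases hall z hz with rfl | rfl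
    · exact Subgroup.one_mem _
    · exact Subgroup.pow_mem _ (Subgroup.mem_zpowers c) k

/-- The centre of a Weyl group not containing `-1`. -/
theorem center_one (G : Good4 D) (M : CoxeterMatrix (Fin D.rank)) (hM : ∀ i j : Fin D.rank, G.cm i j = M i j)
    {r0 r1 : ℕ} (hchk : chkZc G.W D.neg D.nroots D.rank r0 r1 = true) (hp1 : D.pairing r0 r1 ≠ 0)
    (hp2 : D.pairing r1 r0 ≠ 0) (s0 : Fin D.nroots) (hs0 : G.w0.foldr G.W s0.val ≠ D.neg s0.val) :
    Nat.card (Subgroup.center M.Group) = 1 ∧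
      Subgroup.center M.Group ≤ Subgroup.zpowers ((List.finRange D.rank).map M.simple).prod := by
  obtain ⟨e, he⟩ := G.weyl_equiv M hM
  have hall : ∀ z ∈ Subgroup.center M.Group, z = 1 := by
    intro z hz
    obtain ⟨l0, h1, h2⟩ := center_cases G M e he hchk hp1 hp2 hz
    rcases h2 with h2 | h2
    · apply e_one_of_perm G M e he
      intro s
      rw [h1, h2]
    · exfalso
      -- `-1` would be the longest element
      have hG := G.toGood3
      set w0p := G.toGood2.pp G.toGood3.w0F with hw0p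
      have hy : G.pp (G.toGood3.w0F ++ l0) = w0p * G.pp l0 := by
        simp [Good2.pp, List.prod_append, hw0p]
      have hlen : lenN D (G.pp (G.toGood3.w0F ++ l0)) = 0 := by
        rw [lenN, Finset.card_eq_zero, Finset.filter_eq_empty_iff]
        intro s _ hs
        obtain ⟨hs1, hs2⟩ := hs
        apply hs2
        rw [hy, Equiv.Perm.mul_apply, h2, G.toGood2.pp_nf, G.toGood2.nf_pos_iff]
        have := G.toGood3.w0_neg s hs1
        omega
      obtain ⟨l', _, hl', hl''⟩ := G.toGood2.exists_word_lenN (fun _ => True) (G.toGood3.w0F ++ l0) (by simp)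
      have hl0 : l' = [] := by
        apply List.eq_nil_of_length_eq_zero
        rw [hl'', show G.toGood2.pp (G.toGood3.w0F ++ l0) = G.pp (G.toGood3.w0F ++ l0) from rfl, hlen]
      rw [hl0] at hl'
      have h3 : w0p * G.pp l0 = 1 := by
        rw [← hy]
        exact hl'.symm
      have h4 : ∀ s, w0p (G.nf s) = s := by
        intro s
        have := Equiv.congr_fun h3 s
        simpa [h2] using this
      have h5 := h4 (G.nf s0)
      rw [G.nf_nf] at h5
      have h6 : (w0p s0).val = G.w0.foldr G.W s0.val := G.pp_w0F_val s0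
      rw [h5] at h6
      exact hs0 h6.symm
  have hbot : Subgroup.center M.Group = ⊥ := by
    rw [eq_bot_iff]
    intro z hz
    exact hall z hz
  constructor
  · rw [hbot]
    simp
  · rw [hbot]
    exact bot_le

end Cfsg.Agent.Lib.CT
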